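import Mathlib

set_option autoImplicit false

namespace Cfsg.Agent.Lib.Helper12

theorem sum_card_fixedBy_of_transitive (G X : Type*) [Group G] [MulAction G X] [Fintype G]
    [Finite X] [Nonempty X] [MulAction.IsPretransitive G X] :
    ∑ g : G, Nat.card (MulAction.fixedBy X g) = Nat.card G := by
  classical
  have := Fintype.ofFinite X
  have h := MulAction.sum_card_fixedBy_eq_card_orbits_mul_card_group G X
  obtain ⟨u⟩ := (MulAction.pretransitive_iff_unique_quotient_of_nonempty G X).1 inferInstance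
  have h1 : Fintype.card (Quotient (MulAction.orbitRel G X)) = 1 :=
    Fintype.card_eq_one_iff_nonempty_unique.2 ⟨u⟩
  rw [h1, one_mul] at h
  rw [Nat.card_eq_fintype_card, ← h]
  apply Finset.sum_congr rfl
  intro g _
  rw [Nat.card_eq_fintype_card]

theorem card_fixedBy_prod (G X Y : Type*) [Group G] [MulAction G X] [MulAction G Y] (g : G) :
    Nat.card (MulAction.fixedBy (X × Y) g) =
      Nat.card (MulAction.fixedBy X g) * Nat.card (MulAction.fixedBy Y g) := by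
  rw [← Nat.card_prod]
  apply Nat.card_congr
  exact
    { toFun := fun z => (⟨z.1.1, congrArg Prod.fst z.2⟩, ⟨z.1.2, congrArg Prod.snd z.2⟩)
      invFun := fun z => ⟨(z.1.1, z.2.1), Prod.ext z.1.2 z.2.2⟩
      left_inv := fun _ => rfl
      right_inv := fun _ => rfl }

theorem mk_mem_fixedBy_iff {G : Type*} [Group G] (Y : Subgroup G) (g z : G) :
    ((z : G ⧸ Y) ∈ MulAction.fixedBy (G ⧸ Y) g) ↔ z⁻¹ * g * z ∈ Y := by
  rw [MulAction.mem_fixedBy, MulAction.Quotient.smul_coe, smul_eq_mul, eq_comm, QuotientGroup.eq,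
    mul_assoc]

theorem card_fixedBy_le_one {G : Type*} [Group G] [Finite G] (Y : Subgroup G) (g : G)
    (h : ∀ z z' : G, z⁻¹ * g * z ∈ Y → z'⁻¹ * g * z' ∈ Y → z⁻¹ * z' ∈ Y) :
    Nat.card (MulAction.fixedBy (G ⧸ Y) g) ≤ 1 := by
  rw [Finite.card_le_one_iff_subsingleton]
  constructor
  rintro ⟨a, ha⟩ ⟨b, hb⟩
  obtain ⟨z, rfl⟩ := QuotientGroup.mk_surjective a
  obtain ⟨z', rfl⟩ := QuotientGroup.mk_surjective b
  apply Subtype.ext
  rw [mk_mem_fixedBy_iff] at ha hb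
  exact QuotientGroup.eq.2 (h z z' ha hb)

theorem one_le_card_fixedBy {G : Type*} [Group G] [Finite G] (Y : Subgroup G) (g : G)
    (h : ∃ z : G, z⁻¹ * g * z ∈ Y) : 1 ≤ Nat.card (MulAction.fixedBy (G ⧸ Y) g) := by
  obtain ⟨z, hz⟩ := h
  have : Nonempty (MulAction.fixedBy (G ⧸ Y) g) := ⟨⟨(z : G ⧸ Y), (mk_mem_fixedBy_iff Y g z).2 hz⟩⟩
  exact Nat.card_pos

theorem card_fixedBy_one {G : Type*} [Group G] (Y : Subgroup G) :
    Nat.card (MulAction.fixedBy (G ⧸ Y) (1 : G)) = Y.index := by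
  rw [Subgroup.index_eq_card]
  apply Nat.card_congr
  exact
    { toFun := fun z => z.1
      invFun := fun z => ⟨z, one_smul _ _⟩
      left_inv := fun _ => rfl
      right_inv := fun _ => rfl }

theorem burnside_count {G : Type*} [Group G] [Finite G] (X Y : Subgroup G)
    (hXY : ∀ g : G, ∃ x ∈ X, ∃ y ∈ Y, g = x * y) (hX : X ≠ ⊤) (hY : Y ≠ ⊤)
    (hterm : ∀ g : G, g ≠ 1 → 0 ≤ ((Nat.card (MulAction.fixedBy (G ⧸ X) g) : ℤ) - 1) *
      ((Nat.card (MulAction.fixedBy (G ⧸ Y) g) : ℤ) - 1)) : False := by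
  classical
  have := Fintype.ofFinite G
  have hbase : ∀ p : (G ⧸ X) × (G ⧸ Y), ∃ g : G, g • (((1 : G) : G ⧸ X), ((1 : G) : G ⧸ Y)) = p := by
    rintro ⟨a, b⟩
    obtain ⟨g₁, rfl⟩ := QuotientGroup.mk_surjective a
    obtain ⟨g₂, rfl⟩ := QuotientGroup.mk_surjective b
    obtain ⟨x, hx, y, hy, hxy⟩ := hXY (g₁⁻¹ * g₂)
    refine ⟨g₁ * x, ?_⟩
    apply Prod.ext
    · change ((g₁ * x) • ((1 : G) : G ⧸ X)) = (g₁ : G ⧸ X)
      rw [MulAction.Quotient.smul_coe, smul_eq_mul, mul_one, eq_comm, QuotientGroup.eq]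
      simpa using hx
    · change ((g₁ * x) • ((1 : G) : G ⧸ Y)) = (g₂ : G ⧸ Y)
      rw [MulAction.Quotient.smul_coe, smul_eq_mul, mul_one, QuotientGroup.eq]
      have : (g₁ * x)⁻¹ * g₂ = y := by
        have h1 : (g₁ * x)⁻¹ * g₂ = x⁻¹ * (g₁⁻¹ * g₂) := by group
        rw [h1, hxy]; group
      rw [this]; exact hy
  have htrans : MulAction.IsPretransitive G ((G ⧸ X) × (G ⧸ Y)) := by
    constructor
    intro p q
    obtain ⟨g, hg⟩ := hbase p
    obtain ⟨g', hg'⟩ := hbase q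
    refine ⟨g' * g⁻¹, ?_⟩
    rw [← hg, ← hg', mul_smul, inv_smul_smul]
  have s12 := sum_card_fixedBy_of_transitive G ((G ⧸ X) × (G ⧸ Y))
  have s1 := sum_card_fixedBy_of_transitive G (G ⧸ X)
  have s2 := sum_card_fixedBy_of_transitive G (G ⧸ Y)
  simp only [card_fixedBy_prod] at s12
  have hsum : ∑ g : G, (((Nat.card (MulAction.fixedBy (G ⧸ X) g) : ℤ) - 1) *
      ((Nat.card (MulAction.fixedBy (G ⧸ Y) g) : ℤ) - 1)) = 0 := by
    have e : ∀ g : G, (((Nat.card (MulAction.fixedBy (G ⧸ X) g) : ℤ) - 1) *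
      ((Nat.card (MulAction.fixedBy (G ⧸ Y) g) : ℤ) - 1)) =
        ((Nat.card (MulAction.fixedBy (G ⧸ X) g) * Nat.card (MulAction.fixedBy (G ⧸ Y) g) : ℕ) : ℤ)
        - (Nat.card (MulAction.fixedBy (G ⧸ X) g) : ℤ) - (Nat.card (MulAction.fixedBy (G ⧸ Y) g) : ℤ)
        + 1 := by
      intro g; push_cast; ring
    simp only [e]
    rw [Finset.sum_add_distrib, Finset.sum_sub_distrib, Finset.sum_sub_distrib, ← Nat.cast_sum,
      ← Nat.cast_sum, ← Nat.cast_sum, s12, s1, s2]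
    simp [Nat.card_eq_fintype_card]
  have hpos : 0 < ((Nat.card (MulAction.fixedBy (G ⧸ X) (1 : G)) : ℤ) - 1) *
      ((Nat.card (MulAction.fixedBy (G ⧸ Y) (1 : G)) : ℤ) - 1) := by
    rw [card_fixedBy_one, card_fixedBy_one]
    have h1 : 2 ≤ X.index := by
      have h2 : X.index ≠ 1 := fun h => hX (Subgroup.index_eq_one.1 h)
      have h3 : X.index ≠ 0 := Subgroup.index_ne_zero_of_finite
      omega
    have h1' : 2 ≤ Y.index := by
      have h2 : Y.index ≠ 1 := fun h => hY (Subgroup.index_eq_one.1 h)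
      have h3 : Y.index ≠ 0 := Subgroup.index_ne_zero_of_finite
      omega
    have h4 : (2 : ℤ) ≤ (X.index : ℤ) := by exact_mod_cast h1
    have h5 : (2 : ℤ) ≤ (Y.index : ℤ) := by exact_mod_cast h1'
    apply mul_pos <;> linarith
  have hle := Finset.single_le_sum (f := fun g : G =>
    (((Nat.card (MulAction.fixedBy (G ⧸ X) g) : ℤ) - 1) *
      ((Nat.card (MulAction.fixedBy (G ⧸ Y) g) : ℤ) - 1))) (s := Finset.univ) (a := 1)
    (by
      intro g _
      by_cases hg : g = 1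
      · rw [hg]; exact hpos.le
      · exact hterm g hg) (Finset.mem_univ _)
  rw [hsum] at hle
  exact absurd hpos (not_lt.2 hle)

end Cfsg.Agent.Lib.Helper12
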