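import Mathlib
import Cfsg.Prelude.Def_SolvableStructure
import Cfsg.Agent.Lib.Helper12.Card
import Cfsg.Agent.Lib.Helper12.CoreFree
import Cfsg.Agent.S0004

set_option autoImplicit false

namespace Cfsg.Agent.Lib.Helper12

open Pointwise

theorem index_conj_smul {G : Type*} [Group G] (H : Subgroup G) (g : G) :
    (MulAut.conj g • H : Subgroup G).index = H.index :=
  Subgroup.index_map_equiv H (MulAut.conj g)

theorem relIndex_dvd_index_of_le_normalizer {G : Type*} [Group G] [Finite G] {D S : Subgroup G}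
    (h : D ≤ Subgroup.normalizer (S : Set G)) : S.relIndex D ∣ S.index := by
  have h1 := card_sup_mul_card_inf' D S h
  have h2 := relIndex_mul_card_inf D S
  have h3 : Nat.card (D ⊔ S : Subgroup G) = S.relIndex D * Nat.card S := by
    apply Nat.eq_of_mul_eq_mul_right (Nat.card_pos (α := (D ⊓ S : Subgroup G)))
    rw [h1, ← h2]; ring
  have h4 : Nat.card (D ⊔ S : Subgroup G) ∣ Nat.card G := Subgroup.card_subgroup_dvd_card _
  rw [h3, ← Subgroup.index_mul_card S] at h4
  exact Nat.dvd_of_mul_dvd_mul_right Nat.card_pos h4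

theorem relIndex_dvd_index_of_normal' {G : Type*} [Group G] [Finite G] (H N : Subgroup G)
    [N.Normal] : H.relIndex N ∣ H.index := by
  have h1 := card_sup_mul_card_inf H N
  have h2 := relIndex_mul_card_inf N H
  rw [inf_comm] at h2
  have h3 : Nat.card (H ⊔ N : Subgroup G) = H.relIndex N * Nat.card H := by
    apply Nat.eq_of_mul_eq_mul_right (Nat.card_pos (α := (H ⊓ N : Subgroup G)))
    rw [h1, ← h2]; ring
  have h4 : Nat.card (H ⊔ N : Subgroup G) ∣ Nat.card G := Subgroup.card_subgroup_dvd_card _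
  rw [h3, ← Subgroup.index_mul_card H] at h4
  exact Nat.dvd_of_mul_dvd_mul_right Nat.card_pos h4

theorem cs_not_dvd_card {G : Type*} [Group G] [Finite G]
    {K : Nat.Primes → Subgroup G} (hK : Cfsg.IsComplementSystem K) (p : Nat.Primes) :
    ¬ (p : ℕ) ∣ Nat.card (K p) := by
  intro h
  have h1 := Subgroup.card_mul_index (K p)
  rw [hK p] at h1
  have h2 : (p : ℕ) ^ ((Nat.card G).factorization p + 1) ∣ Nat.card G := by
    rw [pow_succ, mul_comm]
    calc (p : ℕ) * (p : ℕ) ^ (Nat.card G).factorization p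
        ∣ Nat.card (K p) * (p : ℕ) ^ (Nat.card G).factorization p := Nat.mul_dvd_mul h dvd_rfl
      _ = Nat.card G := h1
  exact Nat.pow_succ_factorization_not_dvd Nat.card_pos.ne' p.2 h2

theorem cs_eq_top {G : Type*} [Group G] [Finite G]
    {K : Nat.Primes → Subgroup G} (hK : Cfsg.IsComplementSystem K) (p : Nat.Primes)
    (hp : ¬ (p : ℕ) ∣ Nat.card G) : K p = ⊤ := by
  rw [← Subgroup.index_eq_one, hK p, Nat.factorization_eq_zero_of_not_dvd hp, pow_zero]

theorem cs_conj {G : Type*} [Group G]
    {K : Nat.Primes → Subgroup G} (hK : Cfsg.IsComplementSystem K) (g : G) :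
    Cfsg.IsComplementSystem (fun p => MulAut.conj g • K p) := by
  intro p
  rw [index_conj_smul]; exact hK p

theorem cs_index_iInf {G : Type*} [Group G] [Finite G]
    {K : Nat.Primes → Subgroup G} (hK : Cfsg.IsComplementSystem K) (s : Finset Nat.Primes) :
    (⨅ p ∈ s, K p).index = ∏ p ∈ s, (p : ℕ) ^ (Nat.card G).factorization p := by
  classical
  induction s using Finset.induction_on with
  | empty => simp
  | insert q s hq ih =>
    rw [Finset.iInf_insert, Finset.prod_insert hq, ← ih, ← hK q]
    apply index_inf_of_coprime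
    rw [ih, hK q]
    apply Nat.Coprime.prod_right
    intro p hp
    apply Nat.Coprime.pow
    rw [Nat.coprime_primes q.2 p.2]
    intro h
    apply hq
    have : q = p := Subtype.ext h
    rwa [this]

theorem cs_coprime_index_iInf {G : Type*} [Group G] [Finite G]
    {K : Nat.Primes → Subgroup G} (hK : Cfsg.IsComplementSystem K) (s : Finset Nat.Primes)
    (q : Nat.Primes) (hq : q ∉ s) : ((⨅ p ∈ s, K p).index).Coprime q := by
  rw [cs_index_iInf hK]
  apply Nat.Coprime.prod_left
  intro p hp
  apply Nat.Coprime.pow_left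
  rw [Nat.coprime_primes p.2 q.2]
  intro h
  apply hq
  have : p = q := Subtype.ext h
  rwa [← this]

theorem finite_primes_dvd {n : ℕ} (hn : n ≠ 0) : {p : Nat.Primes | (p : ℕ) ∣ n}.Finite := by
  have h1 : {d : ℕ | d ∣ n}.Finite :=
    Set.Finite.subset (Set.finite_Iic n) (fun d hd => Nat.le_of_dvd (Nat.pos_of_ne_zero hn) hd)
  have h2 : {p : Nat.Primes | (p : ℕ) ∣ n} = (fun p : Nat.Primes => (p : ℕ)) ⁻¹' {d : ℕ | d ∣ n} := rfl
  rw [h2]
  exact Set.Finite.preimage (Nat.Primes.coe_nat_injective.injOn) h1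

/-- the finite set of primes dividing the order -/
noncomputable def primesOf (n : ℕ) : Finset Nat.Primes :=
  if hn : n = 0 then ∅ else (finite_primes_dvd hn).toFinset

theorem mem_primesOf {n : ℕ} (hn : n ≠ 0) (p : Nat.Primes) : p ∈ primesOf n ↔ (p : ℕ) ∣ n := by
  rw [primesOf, dif_neg hn, Set.Finite.mem_toFinset]
  rfl

/-- Hall conjugacy for two `p`-complements. -/
theorem conj_of_index_eq {G : Type*} [Group G] [Finite G] [Group.IsSolvable G]
    (H K : Subgroup G) (hidx : H.index = K.index) (hcop : (Nat.card H).Coprime H.index) :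
    ∃ g : G, MulAut.conj g • H = K := by
  apply Cfsg.Agent.S0004.result (Nat.card H) H.index (Subgroup.card_mul_index H).symm hcop H K rfl
  have h1 := Subgroup.card_mul_index H
  have h2 := Subgroup.card_mul_index K
  rw [← h1, hidx] at h2
  exact Nat.eq_of_mul_eq_mul_right (Nat.pos_of_ne_zero Subgroup.index_ne_zero_of_finite) h2

theorem cs_coprime {G : Type*} [Group G] [Finite G]
    {K : Nat.Primes → Subgroup G} (hK : Cfsg.IsComplementSystem K) (p : Nat.Primes) :
    (Nat.card (K p)).Coprime (K p).index := by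
  rw [hK p]
  apply Nat.Coprime.pow_right
  exact ((Nat.Prime.coprime_iff_not_dvd p.2).2 (cs_not_dvd_card hK p)).symm

end Cfsg.Agent.Lib.Helper12
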