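import Mathlib
import Cfsg.Agent.Lib.Helper12.MinNormal
import Cfsg.Agent.Lib.Helper12.Card
import Cfsg.Agent.Lib.Helper12.CoreFree
import Cfsg.Agent.S0034
import Cfsg.Agent.S0035
import Cfsg.Agent.S0589

set_option autoImplicit false

namespace Cfsg.Agent.Lib.Helper12

open Pointwise

theorem eq_of_normalized_of_complement {Γ : Type*} [Group Γ] [Finite Γ] {K H L : Subgroup Γ}
    (hc : Subgroup.IsComplement' K H) (hH : IsCoatom H) (hLK : L ≤ K) (hL : L ≠ ⊥)
    (hn : H ≤ Subgroup.normalizer (L : Set Γ)) : L = K := by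
  have hdisj : H ⊓ L = ⊥ := by
    rw [eq_bot_iff, ← hc.disjoint.eq_bot, inf_comm]
    exact inf_le_inf_right _ hLK
  have hsup : H ⊔ L = ⊤ := by
    apply hH.2
    refine lt_of_le_of_ne le_sup_left ?_
    intro h
    apply hL
    rw [eq_bot_iff, ← hdisj]
    exact le_inf (by rw [h]; exact le_sup_right) le_rfl
  have h1 := card_sup_mul_card_inf' H L hn
  rw [hsup, hdisj, Subgroup.card_bot, mul_one, Subgroup.card_top, ← hc.card_mul_card, mul_comm] at h1
  have h2 : Nat.card K = Nat.card L := Nat.eq_of_mul_eq_mul_left Nat.card_pos h1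
  exact Subgroup.eq_of_le_of_card_ge hLK h2.le

theorem normalizer_conj_smul' {G : Type*} [Group G] (H : Subgroup G) (g : G) :
    Subgroup.normalizer ((MulAut.conj g • H : Subgroup G) : Set G)
      = MulAut.conj g • Subgroup.normalizer (H : Set G) :=
  (Subgroup.map_equiv_normalizer_eq H (MulAut.conj g)).symm

/-- A Frobenius group with abelian maximal complement is metabelian. -/
theorem derivedSeries_two_of_frobenius {Γ : Type*} [Group Γ] [Finite Γ] (H : Subgroup Γ)
    (hH : IsCoatom H) [IsMulCommutative H] (hF : Cfsg.IsFrobeniusComplement H) :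
    derivedSeries Γ 2 = ⊥ := by
  obtain ⟨K, hKset, hKn, hc⟩ := Cfsg.Agent.S0035.result H hF
  have hKne : K ≠ ⊥ := by
    rintro rfl
    exact hH.1 (Subgroup.isComplement'_bot_left.1 hc)
  have hcop : (Nat.card K).Coprime (Nat.card H) := by
    have h1 := (Cfsg.Agent.S0034.result H hF).2
    rw [hc.index_eq_card] at h1
    have h2 : Nat.card K ≡ 1 [MOD Nat.card H] := h1
    have h3 := h2.gcd_eq
    rw [Nat.gcd_one_left] at h3
    exact h3
  have hKcard : Nat.card K ≠ 1 := fun h => hKne (Subgroup.card_eq_one.1 h)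
  obtain ⟨p, hp, hpd⟩ := Nat.exists_prime_and_dvd hKcard
  have : Fact p.Prime := ⟨hp⟩
  obtain ⟨P⟩ : Nonempty (Sylow p K) := inferInstance
  have hPne : (P : Subgroup K) ≠ ⊥ := P.ne_bot_of_dvd_card hpd
  set P' := (P : Subgroup K).map K.subtype with hP'
  have hfr : Subgroup.normalizer (P' : Set Γ) ⊔ K = ⊤ := Sylow.normalizer_sup_eq_top P
  set N := Subgroup.normalizer (P' : Set Γ) with hN
  have hidx : (K.subgroupOf N).index = Nat.card H := by
    have h1 : (K.subgroupOf N).index = K.relIndex N := rfl
    rw [h1, ← Subgroup.relIndex_sup_right, hfr, Subgroup.relIndex_top_right, hc.symm.index_eq_card]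
  have hcop' : (Nat.card (K.subgroupOf N)).Coprime (K.subgroupOf N).index := by
    rw [hidx]
    exact Nat.Coprime.coprime_dvd_left
      (Subgroup.card_comap_dvd_of_injective K N.subtype N.subtype_injective) hcop
  obtain ⟨B', hB'⟩ := Subgroup.exists_right_complement'_of_coprime hcop'
  have hcardB : Nat.card (B'.map N.subtype) = Nat.card H := by
    rw [Subgroup.card_map_of_injective N.subtype_injective, ← hB'.symm.index_eq_card, hidx]
  obtain ⟨x, hx⟩ := Cfsg.Agent.S0589.result H hF (B'.map N.subtype) (by rw [hcardB])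
  have hBeq : B'.map N.subtype = MulAut.conj x • H :=
    Subgroup.eq_of_le_of_card_ge hx (by rw [card_conj_smul, hcardB])
  have hxH : MulAut.conj x • H ≤ N := hBeq ▸ Subgroup.map_subtype_le B'
  set L := MulAut.conj x⁻¹ • P' with hL
  have hHL : H ≤ Subgroup.normalizer (L : Set Γ) := by
    rw [hL, normalizer_conj_smul', ← Subgroup.pointwise_smul_le_pointwise_smul_iff (a := MulAut.conj x),
      smul_smul, ← map_mul, mul_inv_cancel, map_one, one_smul]
    exact hxH
  have hLK : L ≤ K := by
    have h1 : MulAut.conj x⁻¹ • P' ≤ MulAut.conj x⁻¹ • K :=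
      Subgroup.pointwise_smul_le_pointwise_smul_iff.2 (Subgroup.map_subtype_le _)
    rwa [Subgroup.Normal.conj_smul_eq_self _ K] at h1
  have hLne : L ≠ ⊥ := by
    intro h
    apply hPne
    have h1 : Nat.card L = 1 := by rw [h, Subgroup.card_bot]
    rw [hL, card_conj_smul, hP', Subgroup.card_map_of_injective K.subtype_injective] at h1
    exact Subgroup.card_eq_one.1 h1
  have hLp : IsPGroup p L := (P.2.map K.subtype).map (MulAut.conj x⁻¹).toMonoidHom
  have hLeq : L = K := eq_of_normalized_of_complement hc hH hLK hLne hHL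
  have hKp : IsPGroup p K := hLeq ▸ hLp
  have hCne := inf_centralizer_ne_bot K hKp K le_rfl Subgroup.le_normalizer hKne
  have hCn : (K ⊓ Subgroup.centralizer (K : Set Γ)).Normal := inferInstance
  have hCeq := eq_of_normalized_of_complement hc hH inf_le_left hCne Subgroup.le_normalizer_of_normal
  have hKc : K ≤ Subgroup.centralizer (K : Set Γ) := by
    rw [← hCeq]; exact inf_le_right.trans (Subgroup.centralizer_le inf_le_left)
  have hcomm : commutator Γ ≤ K := by
    rw [← Subgroup.Normal.quotient_commutative_iff_commutator_le]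
    constructor
    constructor
    intro a b
    apply hc.symm.QuotientMulEquiv.injective
    rw [map_mul, map_mul]
    exact mul_comm' _ _
  rw [derivedSeries_succ, derivedSeries_one, eq_bot_iff,
    ← (Subgroup.commutator_eq_bot_iff_le_centralizer).2 hKc]
  exact Subgroup.commutator_mono hcomm hcomm

end Cfsg.Agent.Lib.Helper12
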