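import Mathlib
import Cfsg.Agent.Lib.Helper12.Card
import Cfsg.Agent.Lib.Helper12.CoreFree
import Cfsg.Agent.Lib.Helper12.ComplSys
import Cfsg.Agent.Lib.Helper12.MinNormal
import Cfsg.Agent.Lib.Helper31.Nilpotent
import Cfsg.Agent.S0561

set_option autoImplicit false

namespace Cfsg.Agent.Lib.Helper12

open Pointwise

theorem isNilpotent_of_le {G : Type*} [Group G] {A B : Subgroup G} (h : A ≤ B)
    (hB : Group.IsNilpotent B) : Group.IsNilpotent A := by
  have h1 : Group.IsNilpotent (A.subgroupOf B) := inferInstance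
  exact Group.nilpotent_of_mulEquiv (Subgroup.subgroupOfEquivOfLe h)

theorem isNilpotent_subgroupOf {G : Type*} [Group G] (A L : Subgroup G)
    (hA : Group.IsNilpotent A) : Group.IsNilpotent (A.subgroupOf L) := by
  have h1 : Group.IsNilpotent (A ⊓ L : Subgroup G) := isNilpotent_of_le inf_le_left hA
  rw [← Subgroup.inf_subgroupOf_right]
  exact Group.nilpotent_of_mulEquiv (Subgroup.subgroupOfEquivOfLe inf_le_right).symm

theorem isSolvable_of_le {G : Type*} [Group G] {A B : Subgroup G} (h : A ≤ B)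
    (hB : Group.IsSolvable B) : Group.IsSolvable A :=
  Group.isSolvable_of_isSolvable_injective (Subgroup.inclusion_injective h)

theorem mem_normalizer_of_conj_mem' {G : Type*} [Group G] [Finite G] (D : Subgroup G) (g : G)
    (h : ∀ d ∈ D, g * d * g⁻¹ ∈ D) : g ∈ Subgroup.normalizer (D : Set G) := by
  rw [mem_normalizer_iff_smul]
  apply Subgroup.eq_of_le_of_card_ge
  · rintro _ ⟨d, hd, rfl⟩
    exact h d hd
  · rw [card_conj_smul]

theorem conj_mem_of_mem_normalizer {G : Type*} [Group G] {D : Subgroup G} {g d : G}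
    (hg : g ∈ Subgroup.normalizer (D : Set G)) (hd : d ∈ D) : g * d * g⁻¹ ∈ D :=
  (Subgroup.mem_normalizer_iff.1 hg d).1 hd

theorem card_subgroupOf_of_le {G : Type*} [Group G] {A L : Subgroup G} (h : A ≤ L) :
    Nat.card (A.subgroupOf L) = Nat.card A :=
  Nat.card_congr (Subgroup.subgroupOfEquivOfLe h).toEquiv

/-- relative index of `K₁` in a subgroup `N` normalized by `L`. -/
theorem relIndex_dvd_relIndex_of_le_normalizer {G : Type*} [Group G] [Finite G]
    {N K₁ L : Subgroup G} (hN : N ≤ L) (hn : L ≤ Subgroup.normalizer (N : Set G)) :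
    K₁.relIndex N ∣ K₁.relIndex L := by
  have : (N.subgroupOf L).Normal := (Subgroup.normal_subgroupOf_iff_le_normalizer hN).2 hn
  have h1 := relIndex_dvd_index_of_normal' (K₁.subgroupOf L) (N.subgroupOf L)
  rwa [Subgroup.relIndex_subgroupOf hN] at h1

theorem le_of_coprime_relIndex {G : Type*} [Group G] [Finite G]
    {N K₁ L : Subgroup G} (hN : N ≤ L) (hn : L ≤ Subgroup.normalizer (N : Set G))
    (hc : (Nat.card N).Coprime (K₁.relIndex L)) : N ≤ K₁ := by
  rw [← Subgroup.relIndex_eq_one]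
  have h1 : K₁.relIndex N ∣ K₁.relIndex L := relIndex_dvd_relIndex_of_le_normalizer hN hn
  have h2 : K₁.relIndex N ∣ Nat.card N := Subgroup.relIndex_dvd_card _ _
  exact Nat.eq_one_of_dvd_coprimes hc h2 h1

/-- a subgroup normalized by `L` is factorized by subgroups of coprime relative index. -/
theorem factorized_of_le_normalizer {G : Type*} [Group G] [Finite G]
    {C H₁ K₁ L : Subgroup G} (hC : C ≤ L) (hn : L ≤ Subgroup.normalizer (C : Set G))
    (hc : (H₁.relIndex L).Coprime (K₁.relIndex L)) :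
    ∀ c ∈ C, ∃ h ∈ C ⊓ H₁, ∃ k ∈ C ⊓ K₁, c = h * k := by
  intro c hcC
  have h1 : ((H₁.subgroupOf C).index).Coprime (K₁.subgroupOf C).index :=
    Nat.Coprime.coprime_dvd_left (relIndex_dvd_relIndex_of_le_normalizer hC hn)
      (Nat.Coprime.coprime_dvd_right (relIndex_dvd_relIndex_of_le_normalizer hC hn) hc)
  have h2 := mul_eq_univ_of_coprime_index _ _ h1
  have h3 : (⟨c, hcC⟩ : C) ∈ ((H₁.subgroupOf C : Subgroup C) : Set C) * ((K₁.subgroupOf C : Subgroup C) : Set C) := by
    rw [h2]; trivial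
  obtain ⟨h, hh, k, hk, hhk⟩ := h3
  refine ⟨h, ⟨h.2, hh⟩, k, ⟨k.2, hk⟩, ?_⟩
  exact (congrArg Subtype.val hhk).symm

/-- relative Sylow conjugacy. -/
theorem exists_conj_le_of_isPGroup {G : Type*} [Group G] [Finite G] {p : ℕ} [Fact p.Prime]
    (M P₀ R : Subgroup G) (hR : R ≤ M) (hPp : IsPGroup p P₀) (hRp : IsPGroup p R)
    (hPi : ¬ p ∣ P₀.relIndex M) : ∃ m ∈ M, MulAut.conj m • R ≤ P₀ := by
  let S : Sylow p M := (hPp.comap_subtype (K := M)).toSylow hPi
  obtain ⟨S', hS'⟩ := (hRp.comap_subtype (K := M)).exists_le_sylow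
  obtain ⟨m, hm⟩ := MulAction.exists_smul_eq M S' S
  refine ⟨m, m.2, ?_⟩
  rintro _ ⟨r, hr, rfl⟩
  have h1 : (⟨r, hR hr⟩ : M) ∈ (S' : Subgroup M) := hS' (by
    rw [Subgroup.mem_comap]; exact hr)
  have h2 : m * (⟨r, hR hr⟩ : M) * m⁻¹ ∈ ((m • S' : Sylow p M) : Subgroup M) := by
    rw [Sylow.coe_subgroup_smul]
    exact ⟨_, h1, rfl⟩
  rw [hm] at h2
  exact h2

theorem mem_of_coprime_index' {L : Type*} [Group L] [Finite L] (M : Subgroup L) [M.Normal] (x : L)
    (h : (M.index).Coprime (orderOf x)) : x ∈ M := by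
  obtain ⟨m, hm⟩ := exists_pow_eq_self_of_coprime h
  rw [← hm]
  exact M.pow_mem (Subgroup.pow_index_mem M x) m

/-- `Q` is the set of `q`-elements and `B` the set of `q'`-elements of the (nilpotent) group `K`. -/
structure Split {G : Type*} [Group G] (K : Subgroup G) (q : ℕ) (Q B : Subgroup G) : Prop where
  Q_le : Q ≤ K
  B_le : B ≤ K
  mem_Q : ∀ x ∈ K, (∃ k : ℕ, orderOf x = q ^ k) → x ∈ Q
  mem_B : ∀ x ∈ K, (orderOf x).Coprime q → x ∈ B
  isPGroup : IsPGroup q Q
  coprime : (Nat.card B).Coprime q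
  comm : ∀ x ∈ Q, ∀ y ∈ B, x * y = y * x

theorem exists_split {G : Type*} [Group G] [Finite G] (K : Subgroup G) (hK : Group.IsNilpotent K)
    (q : ℕ) [hq : Fact q.Prime] : ∃ Q B : Subgroup G, Split K q Q B := by
  obtain ⟨P⟩ : Nonempty (Sylow q K) := inferInstance
  have hPn : (P : Subgroup K).Normal := inferInstance
  obtain ⟨B', hB'⟩ := Subgroup.exists_right_complement'_of_coprime P.card_coprime_index
  have hcB : Nat.card B' = (P : Subgroup K).index := hB'.symm.index_eq_card.symm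
  have hiB : B'.index = Nat.card P := hB'.index_eq_card
  obtain ⟨n, hn⟩ := IsPGroup.iff_card.1 P.2
  have hcop : (Nat.card B').Coprime q := by
    rw [hcB]
    exact ((Nat.Prime.coprime_iff_not_dvd hq.out).2 P.not_dvd_index).symm
  have hcomm : ∀ x ∈ (P : Subgroup K), ∀ y ∈ B', x * y = y * x := by
    intro x hx y hy
    apply Cfsg.Agent.Lib.Helper31.commute_of_coprime_orderOf K x y
    have h1 : orderOf x ∣ q ^ n := by
      rw [← hn]
      have := orderOf_dvd_natCard (⟨x, hx⟩ : (P : Subgroup K))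
      rwa [← Subgroup.orderOf_coe] at this
    have h2 : orderOf y ∣ Nat.card B' := by
      have := orderOf_dvd_natCard (⟨y, hy⟩ : B')
      rwa [← Subgroup.orderOf_coe] at this
    exact Nat.Coprime.coprime_dvd_left h1
      (Nat.Coprime.coprime_dvd_right h2 (Nat.Coprime.pow_left n hcop.symm))
  have hBn : B'.Normal := by
    constructor
    intro b hb g
    have hg : g ∈ ((P : Subgroup K) : Set K) * (B' : Set K) := by
      rw [hB'.mul_eq]; trivial
    obtain ⟨x, hx, y, hy, rfl⟩ := hg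
    have h1 : y * b * y⁻¹ ∈ B' := B'.mul_mem (B'.mul_mem hy hb) (B'.inv_mem hy)
    have h2 := hcomm x hx _ h1
    have h3 : x * y * b * (x * y)⁻¹ = x * (y * b * y⁻¹) * x⁻¹ := by group
    rw [h3, h2, mul_assoc, mul_inv_cancel, mul_one]
    exact h1
  refine ⟨(P : Subgroup K).map K.subtype, B'.map K.subtype, Subgroup.map_subtype_le _,
    Subgroup.map_subtype_le _, ?_, ?_, P.2.map _, ?_, ?_⟩
  · intro x hx hk
    refine ⟨⟨x, hx⟩, ?_, rfl⟩
    apply Cfsg.Agent.Lib.Helper31.mem_sylow_of_normal P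
    rwa [← Subgroup.orderOf_coe]
  · intro x hx hk
    refine ⟨⟨x, hx⟩, ?_, rfl⟩
    apply mem_of_coprime_index'
    rw [hiB, hn, ← Subgroup.orderOf_coe]
    exact Nat.Coprime.pow_left n hk.symm
  · rwa [Subgroup.card_map_of_injective K.subtype_injective]
  · rintro _ ⟨x, hx, rfl⟩ _ ⟨y, hy, rfl⟩
    exact congrArg Subtype.val (hcomm x hx y hy)

namespace Split

variable {G : Type*} [Group G] {K Q B : Subgroup G} {q : ℕ}

theorem orderOf_Q [Fact q.Prime] (h : Split K q Q B) {x : G} (hx : x ∈ Q) :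
    ∃ k : ℕ, orderOf x = q ^ k := by
  obtain ⟨k, hk⟩ := IsPGroup.iff_orderOf.1 h.isPGroup ⟨x, hx⟩
  exact ⟨k, by rwa [← Subgroup.orderOf_coe] at hk⟩

theorem orderOf_B (h : Split K q Q B) {y : G} (hy : y ∈ B) : (orderOf y).Coprime q := by
  have h1 : orderOf y ∣ Nat.card B := by
    have := orderOf_dvd_natCard (⟨y, hy⟩ : B)
    rwa [← Subgroup.orderOf_coe] at this
  exact Nat.Coprime.coprime_dvd_left h1 h.coprime

theorem orderOf_conj (g x : G) : orderOf (g * x * g⁻¹) = orderOf x :=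
  (MulAut.conj g).orderOf_eq x

theorem conj_mem_B (h : Split K q Q B) {y g : G} (hy : y ∈ B) (hg : g * y * g⁻¹ ∈ K) :
    g * y * g⁻¹ ∈ B :=
  h.mem_B _ hg (by rw [orderOf_conj]; exact h.orderOf_B hy)

theorem conj_mem_Q [Fact q.Prime] (h : Split K q Q B) {y g : G} (hy : y ∈ Q)
    (hg : g * y * g⁻¹ ∈ K) : g * y * g⁻¹ ∈ Q :=
  h.mem_Q _ hg (by rw [orderOf_conj]; exact h.orderOf_Q hy)

theorem normalizer_le_B [Finite G] (h : Split K q Q B) :
    Subgroup.normalizer (K : Set G) ≤ Subgroup.normalizer (B : Set G) := by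
  intro g hg
  apply mem_normalizer_of_conj_mem'
  intro d hd
  exact h.conj_mem_B hd (conj_mem_of_mem_normalizer hg (h.B_le hd))

theorem normalizer_le_Q [Finite G] [Fact q.Prime] (h : Split K q Q B) :
    Subgroup.normalizer (K : Set G) ≤ Subgroup.normalizer (Q : Set G) := by
  intro g hg
  apply mem_normalizer_of_conj_mem'
  intro d hd
  exact h.conj_mem_Q hd (conj_mem_of_mem_normalizer hg (h.Q_le hd))

theorem le_normalizer_B [Finite G] (h : Split K q Q B) : K ≤ Subgroup.normalizer (B : Set G) :=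
  Subgroup.le_normalizer.trans h.normalizer_le_B

theorem le_normalizer_Q [Finite G] [Fact q.Prime] (h : Split K q Q B) :
    K ≤ Subgroup.normalizer (Q : Set G) :=
  Subgroup.le_normalizer.trans h.normalizer_le_Q

theorem exists_mul [Finite G] [Fact q.Prime] (h : Split K q Q B) {x : G} (hx : x ∈ K) :
    ∃ a ∈ Q, ∃ b ∈ B, x = a * b ∧ a ∈ Subgroup.zpowers x ∧ b ∈ Subgroup.zpowers x := by
  obtain ⟨a, ha, b, hb, hab, hao, hbo⟩ :=
    Cfsg.Agent.Lib.Helper31.exists_prime_decomp q x (isOfFinOrder_of_finite x)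
  have hz : Subgroup.zpowers x ≤ K := (Subgroup.zpowers_le).2 hx
  exact ⟨a, h.mem_Q a (hz ha) hao, b, h.mem_B b (hz hb) hbo, hab, ha, hb⟩

theorem inf_eq_bot [Fact q.Prime] (h : Split K q Q B) : Q ⊓ B = ⊥ := by
  rw [eq_bot_iff]
  intro x hx
  obtain ⟨k, hk⟩ := h.orderOf_Q hx.1
  have h2 := h.orderOf_B hx.2
  rw [hk] at h2
  rw [Subgroup.mem_bot, ← orderOf_eq_one_iff, hk]
  rcases Nat.eq_zero_or_pos k with rfl | hpos
  · simp
  · exfalso
    have h3 : q.Coprime q := Nat.Coprime.coprime_dvd_left (dvd_pow_self q hpos.ne') h2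
    rw [Nat.coprime_self] at h3
    exact (Fact.out : q.Prime).one_lt.ne' h3

theorem sup_eq [Finite G] [Fact q.Prime] (h : Split K q Q B) : Q ⊔ B = K := by
  apply le_antisymm (sup_le h.Q_le h.B_le)
  intro x hx
  obtain ⟨a, ha, b, hb, rfl, -, -⟩ := h.exists_mul hx
  exact Subgroup.mul_mem_sup ha hb

theorem card_mul [Finite G] [Fact q.Prime] (h : Split K q Q B) :
    Nat.card Q * Nat.card B = Nat.card K := by
  have h1 := card_sup_mul_card_inf' Q B (h.Q_le.trans h.le_normalizer_B)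
  rw [h.sup_eq, h.inf_eq_bot, Subgroup.card_bot, mul_one] at h1
  exact h1.symm

theorem le_B (h : Split K q Q B) {R : Subgroup G} (hR : R ≤ K) (hc : (Nat.card R).Coprime q) :
    R ≤ B := by
  intro x hx
  apply h.mem_B x (hR hx)
  have h1 : orderOf x ∣ Nat.card R := by
    have := orderOf_dvd_natCard (⟨x, hx⟩ : R)
    rwa [← Subgroup.orderOf_coe] at this
  exact Nat.Coprime.coprime_dvd_left h1 hc

theorem le_Q [Fact q.Prime] (h : Split K q Q B) {R : Subgroup G} (hR : R ≤ K)
    (hc : IsPGroup q R) : R ≤ Q := by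
  intro x hx
  apply h.mem_Q x (hR hx)
  obtain ⟨k, hk⟩ := IsPGroup.iff_orderOf.1 hc ⟨x, hx⟩
  exact ⟨k, by rwa [← Subgroup.orderOf_coe] at hk⟩

theorem B_ne_bot [Finite G] [Fact q.Prime] (h : Split K q Q B) (hK : ¬ IsPGroup q K) : B ≠ ⊥ := by
  intro hB
  apply hK
  have h1 := h.sup_eq
  rw [hB, sup_bot_eq] at h1
  rw [← h1]; exact h.isPGroup

theorem Q_ne_bot [Finite G] [Fact q.Prime] (h : Split K q Q B) (hK : q ∣ Nat.card K) : Q ≠ ⊥ := by
  intro hQ
  have h1 := h.card_mul
  rw [hQ, Subgroup.card_bot, one_mul] at h1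
  have h2 := h.coprime
  rw [h1] at h2
  have h3 : q.Coprime q := Nat.Coprime.coprime_dvd_left hK h2
  rw [Nat.coprime_self] at h3
  exact (Fact.out : q.Prime).one_lt.ne' h3

theorem coprime_card [Finite G] [Fact q.Prime] (h : Split K q Q B) : (Nat.card Q).Coprime (Nat.card B) := by
  obtain ⟨n, hn⟩ := IsPGroup.iff_card.1 h.isPGroup
  rw [hn]
  exact Nat.Coprime.pow_left n h.coprime.symm

theorem hall_B [Finite G] [Fact q.Prime] (h : Split K q Q B)
    (hK : (Nat.card K).Coprime K.index) : (Nat.card B).Coprime B.index := by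
  rw [← Subgroup.relIndex_mul_index h.B_le]
  have h1 : B.relIndex K = Nat.card Q := by
    have h2 := relIndex_mul_card' h.B_le
    rw [← h.card_mul] at h2
    exact Nat.eq_of_mul_eq_mul_right Nat.card_pos h2
  rw [h1]
  exact Nat.Coprime.mul_right h.coprime_card.symm
    (Nat.Coprime.coprime_dvd_left (Subgroup.card_dvd_of_le h.B_le) hK)

theorem hall_Q [Finite G] [Fact q.Prime] (h : Split K q Q B)
    (hK : (Nat.card K).Coprime K.index) : (Nat.card Q).Coprime Q.index := by
  rw [← Subgroup.relIndex_mul_index h.Q_le]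
  have h1 : Q.relIndex K = Nat.card B := by
    have h2 := relIndex_mul_card' h.Q_le
    rw [← h.card_mul, mul_comm (Nat.card Q)] at h2
    exact Nat.eq_of_mul_eq_mul_right Nat.card_pos h2
  rw [h1]
  exact Nat.Coprime.mul_right h.coprime_card
    (Nat.Coprime.coprime_dvd_left (Subgroup.card_dvd_of_le h.Q_le) hK)

theorem B_le_centralizer (h : Split K q Q B) {E : Subgroup G} (hE : E ≤ Q) :
    B ≤ Subgroup.centralizer (E : Set G) := by
  intro b hb
  rw [Subgroup.mem_centralizer_iff]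
  intro e he
  exact h.comm e (hE he) b hb

theorem Q_le_centralizer (h : Split K q Q B) {E : Subgroup G} (hE : E ≤ B) :
    Q ≤ Subgroup.centralizer (E : Set G) := by
  intro b hb
  rw [Subgroup.mem_centralizer_iff]
  intro e he
  exact (h.comm b hb e (hE he)).symm

end Split

end Cfsg.Agent.Lib.Helper12
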