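import Mathlib
import Cfsg.Agent.Lib.Helper12.KW0

set_option autoImplicit false

namespace Cfsg.Agent.Lib.Helper12

open Pointwise

/-- relative form of the permutability statement for normal Hall subgroups of the factors. -/
theorem rel_perm {G : Type*} [Group G] [Finite G] (L H₁ K₁ A B : Subgroup G)
    (hsolv : Group.IsSolvable L) (hH₁ : H₁ ≤ L) (hK₁ : K₁ ≤ L)
    (hfact : ∀ g ∈ L, ∃ h ∈ H₁, ∃ k ∈ K₁, g = h * k)
    (hA : A ≤ H₁) (hAn : H₁ ≤ Subgroup.normalizer (A : Set G))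
    (hB : B ≤ K₁) (hBn : K₁ ≤ Subgroup.normalizer (B : Set G))
    (hAh : (Nat.card A).Coprime (A.relIndex L)) (hBh : (Nat.card B).Coprime (B.relIndex L)) :
    ∃ S : Subgroup G, (S : Set G) = (A : Set G) * (B : Set G) := by
  have hnorm : ∀ (X Y : Subgroup G), X ≤ Y → Y ≤ Subgroup.normalizer (X : Set G) →
      ((X.subgroupOf L).subgroupOf (Y.subgroupOf L)).Normal := by
    intro X Y hXY hn
    have hle : X.subgroupOf L ≤ Y.subgroupOf L := fun x hx => hXY hx
    rw [Subgroup.normal_subgroupOf_iff_le_normalizer hle]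
    intro y hy
    apply mem_normalizer_of_conj_mem'
    intro d hd
    have h1 : (y : G) * (d : G) * (y : G)⁻¹ ∈ X := conj_mem_of_mem_normalizer (hn hy) hd
    exact h1
  obtain ⟨S', hS'⟩ := Cfsg.Agent.S0561.result (G := L) (H₁.subgroupOf L) (K₁.subgroupOf L)
    (A.subgroupOf L) (B.subgroupOf L)
    (by
      intro g
      obtain ⟨h, hh, k, hk, hg⟩ := hfact g g.2
      exact ⟨⟨h, hH₁ hh⟩, hh, ⟨k, hK₁ hk⟩, hk, Subtype.ext hg⟩)
    (fun x hx => hA hx) (hnorm A H₁ hA hAn) (fun x hx => hB hx) (hnorm B K₁ hB hBn)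
    (by rw [card_subgroupOf_of_le (hA.trans hH₁)]; exact hAh)
    (by rw [card_subgroupOf_of_le (hB.trans hK₁)]; exact hBh) 1 1
  rw [map_one, one_smul, one_smul] at hS'
  refine ⟨S'.map L.subtype, ?_⟩
  ext x
  constructor
  · rintro ⟨y, hy, rfl⟩
    have : y ∈ (S' : Set L) := hy
    rw [hS'] at this
    obtain ⟨a, ha, b, hb, rfl⟩ := this
    exact ⟨a, ha, b, hb, rfl⟩
  · rintro ⟨a, ha, b, hb, rfl⟩
    refine ⟨⟨a, hH₁ (hA ha)⟩ * ⟨b, hK₁ (hB hb)⟩, ?_, rfl⟩
    have : (⟨a, hH₁ (hA ha)⟩ * ⟨b, hK₁ (hB hb)⟩ : L) ∈ (S' : Set L) := by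
      rw [hS']
      exact ⟨_, ha, _, hb, rfl⟩
    exact this

/-- relative minimal normal subgroup of a solvable subgroup. -/
theorem exists_rel_minNormal {G : Type*} [Group G] [Finite G] (W : Subgroup G)
    (hsolv : Group.IsSolvable W) (hW : W ≠ ⊥) :
    ∃ (E : Subgroup G) (p : ℕ), p.Prime ∧ E ≤ W ∧ E ≠ ⊥ ∧ W ≤ Subgroup.normalizer (E : Set G) ∧
      IsPGroup p E := by
  have : Nontrivial W := (Subgroup.nontrivial_iff_ne_bot W).2 hW
  obtain ⟨E', hE'⟩ := exists_minNormal (G := W)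
  obtain ⟨p, hp, hpE, -⟩ := hE'.exists_isPGroup
  obtain ⟨hn, hne, -⟩ := hE'
  refine ⟨E'.map W.subtype, p, hp, Subgroup.map_subtype_le _, ?_, ?_, hpE.map _⟩
  · intro h
    exact hne ((Subgroup.map_eq_bot_iff_of_injective _ W.subtype_injective).1 h)
  · intro w hw
    apply mem_normalizer_of_conj_mem'
    rintro _ ⟨e, he, rfl⟩
    exact ⟨⟨w, hw⟩ * e * ⟨w, hw⟩⁻¹, hn.conj_mem e he _, rfl⟩

/-- cardinality of a subgroup whose carrier is a product of subgroups with trivial intersection -/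
theorem card_of_coe_eq_mul {G : Type*} [Group G] (S A B : Subgroup G)
    (h : (S : Set G) = (A : Set G) * (B : Set G)) (hAB : A ⊓ B = ⊥) :
    Nat.card S = Nat.card A * Nat.card B := by
  have h1 := card_mul_set_mul_card_inf A B
  rw [hAB, Subgroup.card_bot, mul_one, ← h] at h1
  exact h1

theorem inf_eq_bot_of_coprime' {G : Type*} [Group G] {A B : Subgroup G}
    (h : (Nat.card A).Coprime (Nat.card B)) : A ⊓ B = ⊥ :=
  (Subgroup.disjoint_of_coprime_natCard h).eq_bot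

theorem le_of_coe_eq_mul_left {G : Type*} [Group G] {S A B : Subgroup G}
    (h : (S : Set G) = (A : Set G) * (B : Set G)) : A ≤ S := by
  intro a ha
  have : a ∈ (S : Set G) := by rw [h]; exact ⟨a, ha, 1, B.one_mem, mul_one a⟩
  exact this

theorem le_of_coe_eq_mul_right {G : Type*} [Group G] {S A B : Subgroup G}
    (h : (S : Set G) = (A : Set G) * (B : Set G)) : B ≤ S := by
  intro a ha
  have : a ∈ (S : Set G) := by rw [h]; exact ⟨1, A.one_mem, a, ha, one_mul a⟩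
  exact this

end Cfsg.Agent.Lib.Helper12
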