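import Mathlib

set_option autoImplicit false

namespace Cfsg.Agent.Lib.Helper12

open Pointwise

/-- `C X ⊆ X C` elementwise. -/
def PermLe {G : Type*} [Group G] (C X : Subgroup G) : Prop :=
  ∀ c ∈ C, ∀ a ∈ X, ∃ a' ∈ X, ∃ c' ∈ C, c * a = a' * c'

theorem PermLe.of_coe_eq {G : Type*} [Group G] {C X S : Subgroup G}
    (h : (S : Set G) = (X : Set G) * (C : Set G)) : PermLe C X := by
  intro c hc a ha
  have h1 : c ∈ S := by
    rw [← SetLike.mem_coe, h]; exact ⟨1, X.one_mem, c, hc, one_mul c⟩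
  have h2 : a ∈ S := by
    rw [← SetLike.mem_coe, h]; exact ⟨a, ha, 1, C.one_mem, mul_one a⟩
  have h3 : c * a ∈ S := mul_mem h1 h2
  rw [← SetLike.mem_coe, h] at h3
  obtain ⟨a', ha', c', hc', h4⟩ := h3
  exact ⟨a', ha', c', hc', h4.symm⟩

theorem PermLe.sup {G : Type*} [Group G] {C X₁ X₂ : Subgroup G}
    (h1 : PermLe C X₁) (h2 : PermLe C X₂) : PermLe C (X₁ ⊔ X₂) := by
  intro c hc a ha
  rw [Subgroup.sup_eq_closure] at ha
  induction ha using Subgroup.closure_induction'' generalizing c with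
  | one => exact ⟨1, one_mem _, c, hc, by simp⟩
  | mem x hx =>
    rcases hx with hx | hx
    · obtain ⟨a', ha', c', hc', h⟩ := h1 c hc x hx
      exact ⟨a', (le_sup_left : X₁ ≤ X₁ ⊔ X₂) ha', c', hc', h⟩
    · obtain ⟨a', ha', c', hc', h⟩ := h2 c hc x hx
      exact ⟨a', (le_sup_right : X₂ ≤ X₁ ⊔ X₂) ha', c', hc', h⟩
  | inv_mem x hx =>
    rcases hx with hx | hx
    · obtain ⟨a', ha', c', hc', h⟩ := h1 c hc x⁻¹ (inv_mem hx)
      exact ⟨a', (le_sup_left : X₁ ≤ X₁ ⊔ X₂) ha', c', hc', h⟩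
    · obtain ⟨a', ha', c', hc', h⟩ := h2 c hc x⁻¹ (inv_mem hx)
      exact ⟨a', (le_sup_right : X₂ ≤ X₁ ⊔ X₂) ha', c', hc', h⟩
  | mul x y _ _ ihx ihy =>
    obtain ⟨a₁, ha₁, c₁, hc₁, e₁⟩ := ihx c hc
    obtain ⟨a₂, ha₂, c₂, hc₂, e₂⟩ := ihy c₁ hc₁
    exact ⟨a₁ * a₂, mul_mem ha₁ ha₂, c₂, hc₂, by
      rw [← mul_assoc, e₁, mul_assoc, e₂, mul_assoc]⟩

theorem PermLe.exists_subgroup {G : Type*} [Group G] {C X : Subgroup G} (h : PermLe C X) :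
    ∃ S : Subgroup G, (S : Set G) = (X : Set G) * (C : Set G) := by
  refine ⟨{ carrier := (X : Set G) * (C : Set G)
            one_mem' := ⟨1, X.one_mem, 1, C.one_mem, one_mul 1⟩
            mul_mem' := ?_
            inv_mem' := ?_ }, rfl⟩
  · rintro _ _ ⟨a, ha, c, hc, rfl⟩ ⟨a', ha', c', hc', rfl⟩
    obtain ⟨a₂, ha₂, c₂, hc₂, e⟩ := h c hc a' ha'
    refine ⟨a * a₂, mul_mem ha ha₂, c₂ * c', mul_mem hc₂ hc', ?_⟩
    change a * a₂ * (c₂ * c') = a * c * (a' * c')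
    calc a * a₂ * (c₂ * c') = a * (a₂ * c₂) * c' := by group
      _ = a * (c * a') * c' := by rw [e]
      _ = a * c * (a' * c') := by group
  · rintro _ ⟨a, ha, c, hc, rfl⟩
    obtain ⟨a₂, ha₂, c₂, hc₂, e⟩ := h c⁻¹ (inv_mem hc) a⁻¹ (inv_mem ha)
    refine ⟨a₂, ha₂, c₂, hc₂, ?_⟩
    change a₂ * c₂ = (a * c)⁻¹
    rw [← e, mul_inv_rev]

theorem PermLe.conj {G : Type*} [Group G] {C X : Subgroup G} (h : PermLe C X) (b : G) :
    PermLe (MulAut.conj b • C) (MulAut.conj b • X) := by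
  rintro _ ⟨c, hc, rfl⟩ _ ⟨a, ha, rfl⟩
  obtain ⟨a', ha', c', hc', e⟩ := h c hc a ha
  refine ⟨_, ⟨a', ha', rfl⟩, _, ⟨c', hc', rfl⟩, ?_⟩
  change (MulAut.conj b) c * (MulAut.conj b) a = (MulAut.conj b) a' * (MulAut.conj b) c'
  rw [← map_mul, ← map_mul, e]

end Cfsg.Agent.Lib.Helper12
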