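import Mathlib
import Cfsg.Agent.Lib.Helper12.KW0b
import Cfsg.Agent.S0143
import Cfsg.Agent.S0562
import Cfsg.Agent.S0566

set_option autoImplicit false

namespace Cfsg.Agent.Lib.Helper12

open Pointwise

universe u

/-- A minimal counterexample to the solvability of products of coprime nilpotent groups. -/
structure MinCE (G : Type u) [Group G] [Finite G] (H K : Subgroup G) : Prop where
  nilH : Group.IsNilpotent H
  nilK : Group.IsNilpotent K
  cop : (Nat.card H).Coprime (Nat.card K)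
  fact : ∀ g : G, ∃ h ∈ H, ∃ k ∈ K, g = h * k
  ih : ∀ (G' : Type u) [Group G'] [Finite G'] (H' K' : Subgroup G'), Nat.card G' < Nat.card G →
    Group.IsNilpotent H' → Group.IsNilpotent K' → (Nat.card H').Coprime (Nat.card K') →
    (∀ g : G', ∃ h ∈ H', ∃ k ∈ K', g = h * k) → Group.IsSolvable G'
  notSolv : ¬ Group.IsSolvable G

namespace MinCE

variable {G : Type u} [Group G] [Finite G] {H K : Subgroup G}

theorem symm (hG : MinCE G H K) : MinCE G K H where
  nilH := hG.nilK
  nilK := hG.nilH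
  cop := hG.cop.symm
  fact := by
    intro g
    obtain ⟨h, hh, k, hk, hg⟩ := hG.fact g⁻¹
    refine ⟨k⁻¹, K.inv_mem hk, h⁻¹, H.inv_mem hh, ?_⟩
    rw [← mul_inv_rev, ← hg, inv_inv]
  ih := hG.ih
  notSolv := hG.notSolv

theorem inf_eq_bot (hG : MinCE G H K) : H ⊓ K = ⊥ := inf_eq_bot_of_coprime' hG.cop

theorem mul_eq_univ (hG : MinCE G H K) : (H : Set G) * (K : Set G) = Set.univ := by
  rw [Set.eq_univ_iff_forall]
  intro g
  obtain ⟨h, hh, k, hk, rfl⟩ := hG.fact g
  exact ⟨h, hh, k, hk, rfl⟩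

theorem card_eq (hG : MinCE G H K) : Nat.card H * Nat.card K = Nat.card G := by
  have h1 := card_mul_set_mul_card_inf H K
  rw [hG.inf_eq_bot, Subgroup.card_bot, mul_one, hG.mul_eq_univ, Nat.card_univ] at h1
  exact h1.symm

theorem index_H (hG : MinCE G H K) : H.index = Nat.card K := by
  have h1 := Subgroup.card_mul_index H
  rw [← hG.card_eq] at h1
  exact Nat.eq_of_mul_eq_mul_left Nat.card_pos h1

theorem index_K (hG : MinCE G H K) : K.index = Nat.card H := hG.symm.index_H

theorem hall_H (hG : MinCE G H K) : (Nat.card H).Coprime H.index := by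
  rw [hG.index_H]; exact hG.cop

theorem hall_K (hG : MinCE G H K) : (Nat.card K).Coprime K.index := hG.symm.hall_H

theorem card_lt_of_ne_top {L : Subgroup G} (hL : L ≠ ⊤) : Nat.card L < Nat.card G := by
  have h1 := Subgroup.card_mul_index L
  have h2 : L.index ≠ 1 := fun h => hL (Subgroup.index_eq_one.1 h)
  have h3 : L.index ≠ 0 := Subgroup.index_ne_zero_of_finite
  have h4 : 0 < Nat.card L := Nat.card_pos
  have h5 : 2 ≤ L.index := by omega
  nlinarith

theorem solvable_of_factorized (hG : MinCE G H K) {L : Subgroup G} (hL : L ≠ ⊤)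
    (hf : ∀ g ∈ L, ∃ h ∈ L ⊓ H, ∃ k ∈ L ⊓ K, g = h * k) : Group.IsSolvable L := by
  apply hG.ih L (H.subgroupOf L) (K.subgroupOf L) (card_lt_of_ne_top hL)
    (isNilpotent_subgroupOf _ _ hG.nilH) (isNilpotent_subgroupOf _ _ hG.nilK)
  · exact Nat.Coprime.coprime_dvd_left
      (Subgroup.card_comap_dvd_of_injective H L.subtype L.subtype_injective)
      (Nat.Coprime.coprime_dvd_right
        (Subgroup.card_comap_dvd_of_injective K L.subtype L.subtype_injective) hG.cop)
  · intro g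
    obtain ⟨h, hh, k, hk, hg⟩ := hf g g.2
    exact ⟨⟨h, hh.1⟩, hh.2, ⟨k, hk.1⟩, hk.2, Subtype.ext hg⟩

theorem factorized_of_K_le (hG : MinCE G H K) {M : Subgroup G} (hM : K ≤ M) :
    ∀ g ∈ M, ∃ h ∈ M ⊓ H, ∃ k ∈ M ⊓ K, g = h * k := by
  intro g hg
  obtain ⟨h, hh, k, hk, rfl⟩ := hG.fact g
  refine ⟨h, ⟨?_, hh⟩, k, ⟨hM hk, hk⟩, rfl⟩
  have : h = h * k * k⁻¹ := by group
  rw [this]
  exact M.mul_mem hg (M.inv_mem (hM hk))

theorem factorized_of_H_le (hG : MinCE G H K) {M : Subgroup G} (hM : H ≤ M) :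
    ∀ g ∈ M, ∃ h ∈ M ⊓ H, ∃ k ∈ M ⊓ K, g = h * k := by
  intro g hg
  obtain ⟨h, hh, k, hk, rfl⟩ := hG.fact g
  refine ⟨h, ⟨hM hh, hh⟩, k, ⟨?_, hk⟩, rfl⟩
  have : k = h⁻¹ * (h * k) := by group
  rw [this]
  exact M.mul_mem (M.inv_mem (hM hh)) hg

theorem solvable_of_K_le (hG : MinCE G H K) {M : Subgroup G} (hM : K ≤ M) (hne : M ≠ ⊤) :
    Group.IsSolvable M := hG.solvable_of_factorized hne (hG.factorized_of_K_le hM)

theorem simple (hG : MinCE G H K) (N : Subgroup G) [hN : N.Normal] : N = ⊥ ∨ N = ⊤ := by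
  by_contra hcon
  push Not at hcon
  obtain ⟨hbot, htop⟩ := hcon
  apply hG.notSolv
  have h1 : Group.IsSolvable N := by
    apply hG.solvable_of_factorized htop
    apply factorized_of_le_normalizer (L := ⊤) le_top
    · rw [Subgroup.normalizer_eq_top_iff.2 hN]
    · rw [Subgroup.relIndex_top_right, Subgroup.relIndex_top_right, hG.index_H, hG.index_K]
      exact hG.cop.symm
  have h2 : Group.IsSolvable (G ⧸ N) := by
    apply hG.ih (G ⧸ N) (H.map (QuotientGroup.mk' N)) (K.map (QuotientGroup.mk' N))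
    · rw [← Subgroup.index_eq_card, ← Subgroup.index_mul_card N]
      have h1 : 1 < Nat.card N := (Subgroup.one_lt_card_iff_ne_bot N).2 hbot
      have h2 : 0 < N.index := Nat.pos_of_ne_zero Subgroup.index_ne_zero_of_finite
      nlinarith
    · have := hG.nilH
      exact Group.nilpotent_of_surjective ((QuotientGroup.mk' N).subgroupMap H)
        ((QuotientGroup.mk' N).subgroupMap_surjective H)
    · have := hG.nilK
      exact Group.nilpotent_of_surjective ((QuotientGroup.mk' N).subgroupMap K)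
        ((QuotientGroup.mk' N).subgroupMap_surjective K)
    · exact Nat.Coprime.coprime_dvd_left (Subgroup.card_map_dvd _ _)
        (Nat.Coprime.coprime_dvd_right (Subgroup.card_map_dvd _ _) hG.cop)
    · intro g
      obtain ⟨g, rfl⟩ := QuotientGroup.mk'_surjective N g
      obtain ⟨h, hh, k, hk, rfl⟩ := hG.fact g
      exact ⟨_, Subgroup.mem_map_of_mem _ hh, _, Subgroup.mem_map_of_mem _ hk, map_mul _ _ _⟩
  exact Group.isSolvable_of_ker_le_range N.subtype (QuotientGroup.mk' N) (by simp)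

theorem nontrivial (hG : MinCE G H K) : Nontrivial G := by
  by_contra h
  rw [not_nontrivial_iff_subsingleton] at h
  exact hG.notSolv inferInstance

theorem isSimpleGroup (hG : MinCE G H K) : IsSimpleGroup G :=
  { hG.nontrivial with eq_bot_or_eq_top_of_normal := fun N _ => hG.simple N }

theorem eq_bot_of_normal (hG : MinCE G H K) (N : Subgroup G) [N.Normal] (h : N ≠ ⊤) : N = ⊥ :=
  (hG.simple N).resolve_right h

theorem not_isPGroup_top (hG : MinCE G H K) (p : ℕ) [Fact p.Prime] : ¬ IsPGroup p G := by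
  intro h
  have := h.isNilpotent
  exact hG.notSolv inferInstance

theorem H_ne_top (hG : MinCE G H K) : H ≠ ⊤ := by
  intro h
  apply hG.notSolv
  have h1 := hG.nilH
  rw [h] at h1
  have : Group.IsNilpotent G := Group.nilpotent_of_mulEquiv Subgroup.topEquiv
  infer_instance

theorem K_ne_top (hG : MinCE G H K) : K ≠ ⊤ := hG.symm.H_ne_top

theorem H_ne_bot (hG : MinCE G H K) : H ≠ ⊥ := by
  intro h
  apply hG.K_ne_top
  rw [eq_top_iff]
  intro g _
  obtain ⟨h', hh, k, hk, rfl⟩ := hG.fact g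
  rw [h, Subgroup.mem_bot] at hh
  rw [hh, one_mul]; exact hk

theorem K_ne_bot (hG : MinCE G H K) : K ≠ ⊥ := hG.symm.H_ne_bot

theorem not_isPGroup_K (hG : MinCE G H K) (q : ℕ) [hq : Fact q.Prime] : ¬ IsPGroup q K := by
  intro hK
  obtain ⟨b, hb⟩ := IsPGroup.iff_card.1 hK
  have := hG.nilH
  have hne : (⊤ : Subgroup H) ≠ ⊥ := by
    have : Nontrivial H := (Subgroup.nontrivial_iff_ne_bot H).2 hG.H_ne_bot
    exact top_ne_bot
  obtain ⟨z, -, hz, hz1⟩ :=
    Cfsg.Agent.Lib.Helper31.exists_mem_center_of_normal_of_nilpotent (⊤ : Subgroup H) hne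
  have hle : H ≤ Subgroup.centralizer ({(z : G)} : Set G) := by
    intro h hh
    rw [Subgroup.mem_centralizer_singleton_iff]
    exact congrArg Subtype.val (Subgroup.mem_center_iff.1 hz ⟨h, hh⟩)
  have hdvd : (Subgroup.centralizer ({(z : G)} : Set G)).index ∣ q ^ b := by
    rw [← hb, ← hG.index_H]
    exact Subgroup.index_dvd_of_le hle
  obtain ⟨k, -, hk⟩ := (Nat.dvd_prime_pow hq.out).1 hdvd
  have := hG.isSimpleGroup
  have hprime := Cfsg.Agent.S0143.result q k hq.out (z : G) (fun h => hz1 (Subtype.ext h)) hk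
  apply hG.notSolv
  have : Fact (Nat.card G).Prime := ⟨hprime⟩
  have := isCyclic_of_prime_card (α := G) rfl
  have : IsMulCommutative G := inferInstance
  infer_instance

theorem not_isPGroup_H (hG : MinCE G H K) (q : ℕ) [hq : Fact q.Prime] : ¬ IsPGroup q H :=
  hG.symm.not_isPGroup_K q

end MinCE

/-- `A` is a nontrivial normal subgroup of `H` which is a Hall subgroup of `G`. -/
structure NHall {G : Type*} [Group G] (H A : Subgroup G) : Prop where
  le : A ≤ H
  norm : H ≤ Subgroup.normalizer (A : Set G)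
  ne : A ≠ ⊥
  hall : (Nat.card A).Coprime A.index

theorem coe_conj_smul_eq_mul {G : Type*} [Group G] {S A B : Subgroup G}
    (h : (S : Set G) = (A : Set G) * (B : Set G)) (g : G) :
    ((MulAut.conj g • S : Subgroup G) : Set G) =
      ((MulAut.conj g • A : Subgroup G) : Set G) * ((MulAut.conj g • B : Subgroup G) : Set G) := by
  ext y
  constructor
  · rintro ⟨s, hs, rfl⟩
    have hs' : s ∈ (S : Set G) := hs
    rw [h] at hs'
    obtain ⟨a, ha, b, hb, rfl⟩ := hs'
    exact ⟨_, ⟨a, ha, rfl⟩, _, ⟨b, hb, rfl⟩, (map_mul (MulAut.conj g) a b).symm⟩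
  · rintro ⟨_, ⟨a, ha, rfl⟩, _, ⟨b, hb, rfl⟩, rfl⟩
    refine ⟨a * b, ?_, map_mul (MulAut.conj g) a b⟩
    have : a * b ∈ (S : Set G) := by rw [h]; exact ⟨a, ha, b, hb, rfl⟩
    exact this

theorem conj_smul_eq_top_iff {G : Type*} [Group G] (S : Subgroup G) (g : G) :
    MulAut.conj g • S = ⊤ ↔ S = ⊤ := by
  constructor
  · intro h
    have h1 : MulAut.conj g⁻¹ • (MulAut.conj g • S) = MulAut.conj g⁻¹ • (⊤ : Subgroup G) := by rw [h]
    rw [smul_smul, ← map_mul, inv_mul_cancel, map_one, one_smul] at h1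
    rw [h1, eq_top_iff]
    intro x _
    exact ⟨g * x * g⁻¹, Subgroup.mem_top _, by simp [mul_assoc]⟩
  · rintro rfl
    rw [eq_top_iff]
    intro x _
    exact ⟨g⁻¹ * x * g, Subgroup.mem_top _, by simp [MulAut.conj_apply, mul_assoc]⟩

namespace MinCE

variable {G : Type u} [Group G] [Finite G] {H K : Subgroup G}

theorem sup_eq_top (hG : MinCE G H K) {A B : Subgroup G} (hA : NHall H A) (hB : NHall K B) :
    A ⊔ B = ⊤ := by
  by_contra hD
  have hLne : Subgroup.normalizer ((A ⊔ B : Subgroup G) : Set G) ≠ ⊤ := by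
    intro h
    have hn : (A ⊔ B).Normal := Subgroup.normalizer_eq_top_iff.1 h
    have := hG.eq_bot_of_normal (A ⊔ B) hD
    apply hA.ne
    rw [eq_bot_iff, ← this]; exact le_sup_left
  have hAn : (A.subgroupOf H).Normal :=
    (Subgroup.normal_subgroupOf_iff_le_normalizer hA.le).2 hA.norm
  have hBn : (B.subgroupOf K).Normal :=
    (Subgroup.normal_subgroupOf_iff_le_normalizer hB.le).2 hB.norm
  have hfact := Cfsg.Agent.S0562.result H K A B hG.fact hA.le hAn hB.le hBn
  have hsolv := hG.solvable_of_factorized hLne hfact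
  have hDL : A ⊔ B ≤ Subgroup.normalizer ((A ⊔ B : Subgroup G) : Set G) := Subgroup.le_normalizer
  have hAL := le_sup_left.trans hDL
  have hBL := le_sup_right.trans hDL
  obtain ⟨S, hS⟩ := rel_perm _ _ _ A B hsolv inf_le_left inf_le_left hfact
    (le_inf hAL hA.le) (inf_le_right.trans hA.norm) (le_inf hBL hB.le) (inf_le_right.trans hB.norm)
    (Nat.Coprime.coprime_dvd_right (Dvd.intro _ (Subgroup.relIndex_mul_index hAL)) hA.hall)
    (Nat.Coprime.coprime_dvd_right (Dvd.intro _ (Subgroup.relIndex_mul_index hBL)) hB.hall)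
  have hSne : S ≠ ⊤ := by
    intro h
    apply hD
    rw [eq_top_iff, ← h]
    intro s hs
    have hs' : s ∈ (S : Set G) := hs
    rw [hS] at hs'
    obtain ⟨a, ha, b, hb, rfl⟩ := hs'
    exact Subgroup.mul_mem_sup ha hb
  obtain ⟨N, hNn, hNne, hN⟩ := Cfsg.Agent.S0566.result A B hA.ne hB.ne (by
    intro x
    obtain ⟨h, hh, k, hk, rfl⟩ := hG.fact x
    refine ⟨MulAut.conj h • S, fun h' => hSne ((conj_smul_eq_top_iff S h).1 h'), ?_⟩
    rw [coe_conj_smul_eq_mul hS, map_mul, mul_smul, (mem_normalizer_iff_smul B k).1 (hB.norm hk),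
      (mem_normalizer_iff_smul A h).1 (hA.norm hh)])
  have hNb := hG.eq_bot_of_normal N hNne
  rcases hN with h | h
  · exact hA.ne (eq_bot_iff.2 (hNb ▸ h))
  · exact hB.ne (eq_bot_iff.2 (hNb ▸ h))

theorem conj_sup_eq_top (hG : MinCE G H K) {A B : Subgroup G} (hA : NHall H A) (hB : NHall K B)
    (x y : G) : MulAut.conj x • A ⊔ MulAut.conj y • B = ⊤ := by
  obtain ⟨h, hh, k, hk, hxy⟩ := hG.fact (x⁻¹ * y)
  have hy : y = x * h * k := by rw [mul_assoc, ← hxy]; group
  have h1 : MulAut.conj y • B = MulAut.conj (x * h) • B := by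
    rw [hy, map_mul, mul_smul, (mem_normalizer_iff_smul B k).1 (hB.norm hk)]
  have h2 : MulAut.conj x • A = MulAut.conj (x * h) • A := by
    rw [map_mul, mul_smul, (mem_normalizer_iff_smul A h).1 (hA.norm hh)]
  rw [h1, h2, ← Subgroup.smul_sup, hG.sup_eq_top hA hB, conj_smul_eq_top_iff]

theorem nhall_B (hG : MinCE G H K) {q : ℕ} [Fact q.Prime] {Q B : Subgroup G} (h : Split K q Q B) :
    NHall K B :=
  ⟨h.B_le, h.le_normalizer_B, h.B_ne_bot (hG.not_isPGroup_K q), h.hall_B hG.hall_K⟩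

theorem nhall_Q (hG : MinCE G H K) {q : ℕ} [Fact q.Prime] {Q B : Subgroup G} (h : Split K q Q B)
    (hq : q ∣ Nat.card K) : NHall K Q :=
  ⟨h.Q_le, h.le_normalizer_Q, h.Q_ne_bot hq, h.hall_Q hG.hall_K⟩

theorem kw_normalizer_conj_smul {G : Type*} [Group G] (H : Subgroup G) (g : G) :
    Subgroup.normalizer ((MulAut.conj g • H : Subgroup G) : Set G)
      = MulAut.conj g • Subgroup.normalizer (H : Set G) :=
  (Subgroup.map_equiv_normalizer_eq H (MulAut.conj g)).symm

theorem not_dvd_index_Q {p : ℕ} [hp : Fact p.Prime] {P A : Subgroup G}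
    (h : Split H p P A) (hH : (Nat.card H).Coprime H.index) (hd : p ∣ Nat.card H) :
    ¬ p ∣ P.index := by
  intro hdi
  have h1 := h.hall_Q hH
  have h2 : p ∣ Nat.card P := by
    obtain ⟨n, hn⟩ := IsPGroup.iff_card.1 h.isPGroup
    rw [hn]
    apply dvd_pow_self
    rintro rfl
    rw [pow_zero] at hn
    exact h.Q_ne_bot hd (Subgroup.card_eq_one.1 hn)
  exact hp.out.one_lt.ne' (Nat.eq_one_of_dvd_coprimes h1 h2 hdi)

/-- no nontrivial `p`-subgroup (`p` dividing `|H|`) is normalized by a conjugate of a nontrivial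
normal Hall subgroup of `K`. -/
theorem eq_bot_of_isPGroup (hG : MinCE G H K) {p : ℕ} [hp : Fact p.Prime] (hd : p ∣ Nat.card H)
    {B : Subgroup G} (hB : NHall K B) (E : Subgroup G) (hE : IsPGroup p E) (y : G)
    (hn : MulAut.conj y • B ≤ Subgroup.normalizer (E : Set G)) : E = ⊥ := by
  obtain ⟨P, A, hs⟩ := exists_split H hG.nilH p
  obtain ⟨m, -, hm⟩ := exists_conj_le_of_isPGroup ⊤ P E le_top hs.isPGroup hE (by
    rw [Subgroup.relIndex_top_right]; exact not_dvd_index_Q hs hG.hall_H hd)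
  have h1 : A ≤ Subgroup.normalizer ((MulAut.conj m • E : Subgroup G) : Set G) :=
    (hs.B_le_centralizer hm).trans (Subgroup.centralizer_le_normalizer _)
  have h2 : MulAut.conj (m * y) • B ≤ Subgroup.normalizer ((MulAut.conj m • E : Subgroup G) : Set G) := by
    rw [kw_normalizer_conj_smul, map_mul, mul_smul]
    exact Subgroup.pointwise_smul_le_pointwise_smul_iff.2 hn
  have h3 := hG.conj_sup_eq_top (hG.symm.nhall_B hs) hB 1 (m * y)
  rw [map_one, one_smul] at h3
  have h4 : (MulAut.conj m • E : Subgroup G).Normal := by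
    rw [← Subgroup.normalizer_eq_top_iff, eq_top_iff, ← h3]
    exact sup_le h1 h2
  have h5 : MulAut.conj m • E ≠ ⊤ := by
    intro h
    rw [conj_smul_eq_top_iff] at h
    apply hG.not_isPGroup_top p
    rw [h] at hE
    exact hE.of_equiv Subgroup.topEquiv
  have h6 := hG.eq_bot_of_normal _ h5
  have h7 : Nat.card E = 1 := by rw [← card_conj_smul E m, h6, Subgroup.card_bot]
  exact Subgroup.card_eq_one.1 h7

end MinCE

end Cfsg.Agent.Lib.Helper12
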