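import Mathlib
import Cfsg.Agent.Lib.Helper12.KW1
import Cfsg.Agent.S0008
import Cfsg.Agent.S0044

set_option autoImplicit false

namespace Cfsg.Agent.Lib.Helper12

open Pointwise

theorem fact_card {G : Type*} [Group G] (H K : Subgroup G)
    (cop : (Nat.card H).Coprime (Nat.card K)) (fact : ∀ g : G, ∃ h ∈ H, ∃ k ∈ K, g = h * k) :
    Nat.card H * Nat.card K = Nat.card G := by
  have h1 := card_mul_set_mul_card_inf H K
  have h2 : (H : Set G) * (K : Set G) = Set.univ := by
    rw [Set.eq_univ_iff_forall]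
    intro g
    obtain ⟨h, hh, k, hk, rfl⟩ := fact g
    exact ⟨h, hh, k, hk, rfl⟩
  rw [inf_eq_bot_of_coprime' cop, Subgroup.card_bot, mul_one, h2, Nat.card_univ] at h1
  exact h1.symm

theorem eq_one_of_pow_eq_one_of_coprime {G : Type*} [Group G] {z : G} {m n : ℕ}
    (h : m.Coprime n) (hm : z ^ m = 1) (hn : z ^ n = 1) : z = 1 := by
  rw [← orderOf_eq_one_iff]
  exact Nat.eq_one_of_dvd_coprimes h (orderOf_dvd_of_pow_eq_one hm) (orderOf_dvd_of_pow_eq_one hn)

theorem pow_card_eq_one_of_mem {G : Type*} [Group G] {A : Subgroup G} {x : G} (hx : x ∈ A) :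
    x ^ Nat.card A = 1 := by
  have := pow_card_eq_one' (x := (⟨x, hx⟩ : A))
  exact congrArg Subtype.val this

theorem normal_Q_of_hyps {M : Type*} [Group M] [Finite M] [Group.IsSolvable M] (H₀ K : Subgroup M)
    (nilH : Group.IsNilpotent H₀)
    (cop : (Nat.card H₀).Coprime (Nat.card K)) (fact : ∀ g : M, ∃ h ∈ H₀, ∃ k ∈ K, g = h * k)
    (h1 : ∀ R : Subgroup M, R.Normal → (Nat.card R).Coprime (Nat.card K) → R = ⊥)
    (q : ℕ) [hq : Fact q.Prime] (Q B : Subgroup M) (hs : Split K q Q B)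
    (h2 : ∀ (p : ℕ) [Fact p.Prime] (E : Subgroup M),
      p ∣ Nat.card H₀ → IsPGroup p E → B ≤ Subgroup.normalizer (E : Set M) → E = ⊥) :
    Q.Normal := by
  have hcard := fact_card H₀ K cop fact
  have hKi : K.index = Nat.card H₀ := by
    have h := Subgroup.index_mul_card K
    rw [← hcard] at h
    exact Nat.eq_of_mul_eq_mul_right Nat.card_pos h
  have hHi : H₀.index = Nat.card K := by
    have h := Subgroup.card_mul_index H₀
    rw [← hcard] at h
    exact Nat.eq_of_mul_eq_mul_left Nat.card_pos h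
  set F := Cfsg.fittingSubgroup M with hF
  have hFn : F.Normal := Subgroup.sSup_normal _ (fun H hH => hH.1)
  have hFnil : Group.IsNilpotent F := Cfsg.Agent.S0008.result
  have hCF : Subgroup.centralizer (F : Set M) ≤ F := Cfsg.Agent.S0044.result
  have hle_K : ∀ N : Subgroup M, N.Normal → (Nat.card N).Coprime (Nat.card H₀) → N ≤ K := by
    intro N hN hc
    apply le_of_coprime_relIndex (L := ⊤) le_top
    · rw [Subgroup.normalizer_eq_top_iff.2 hN]
    · rw [Subgroup.relIndex_top_right, hKi]; exact hc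
  have hFcop : (Nat.card F).Coprime (Nat.card H₀) := by
    apply Nat.coprime_of_dvd
    intro p hp hpF hpH
    have := Fact.mk hp
    obtain ⟨Fp, Fp', hsF⟩ := exists_split F hFnil p
    apply hsF.Q_ne_bot hpF
    apply h1
    · constructor
      intro x hx g
      exact hsF.conj_mem_Q hx (hFn.conj_mem x (hsF.Q_le hx) g)
    · obtain ⟨n, hn⟩ := IsPGroup.iff_card.1 hsF.isPGroup
      rw [hn]
      apply Nat.Coprime.pow_left
      rw [Nat.Prime.coprime_iff_not_dvd hp]
      intro hpK
      exact hp.one_lt.ne' (Nat.eq_one_of_dvd_coprimes cop hpH hpK)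
  have hFK : F ≤ K := hle_K F hFn hFcop
  have hFBn : (F ⊓ B).Normal := by
    constructor
    intro x hx g
    exact ⟨hFn.conj_mem x hx.1 g, hs.conj_mem_B hx.2 (hFK (hFn.conj_mem x hx.1 g))⟩
  set C := Subgroup.centralizer ((F ⊓ B : Subgroup M) : Set M) with hC
  have hCn : C.Normal := inferInstance
  have hQC : Q ≤ C := hs.Q_le_centralizer inf_le_right
  have hCB : ∀ x ∈ C, x ∈ B → x ∈ F ⊓ B := by
    intro x hxC hxB
    refine ⟨hCF ?_, hxB⟩
    rw [Subgroup.mem_centralizer_iff]
    intro f hf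
    obtain ⟨a, ha, b, hb, hab, haz, hbz⟩ := hs.exists_mul (hFK hf)
    have hzF : Subgroup.zpowers f ≤ F := Subgroup.zpowers_le.2 hf
    have e1 : a * x = x * a := hs.comm a ha x hxB
    have e2 : b * x = x * b := Subgroup.mem_centralizer_iff.1 hxC b ⟨hzF hbz, hb⟩
    rw [hab, mul_assoc, e2, ← mul_assoc, e1, mul_assoc]
  have hCcop : (Nat.card C).Coprime (Nat.card H₀) := by
    apply Nat.coprime_of_dvd
    intro p hp hpC hpH
    have := Fact.mk hp
    obtain ⟨P₀, A₀, hsH⟩ := exists_split H₀ nilH p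
    have hHhall : (Nat.card H₀).Coprime H₀.index := by rw [hHi]; exact cop
    have hKhall : (Nat.card K).Coprime K.index := by rw [hKi]; exact cop.symm
    obtain ⟨S, hS⟩ := Cfsg.Agent.S0561.result H₀ K P₀ B fact hsH.Q_le
      ((Subgroup.normal_subgroupOf_iff_le_normalizer hsH.Q_le).2 hsH.le_normalizer_Q) hs.B_le
      ((Subgroup.normal_subgroupOf_iff_le_normalizer hs.B_le).2 hs.le_normalizer_B)
      (hsH.hall_Q hHhall) (hs.hall_B hKhall) 1 1
    rw [map_one, one_smul, one_smul] at hS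
    have hPBcop : (Nat.card P₀).Coprime (Nat.card B) :=
      Nat.Coprime.coprime_dvd_left (Subgroup.card_dvd_of_le hsH.Q_le)
        (Nat.Coprime.coprime_dvd_right (Subgroup.card_dvd_of_le hs.B_le) cop)
    have hScard := card_of_coe_eq_mul S P₀ B hS (inf_eq_bot_of_coprime' hPBcop)
    have hPS : P₀ ≤ S := le_of_coe_eq_mul_left hS
    have hBS : B ≤ S := le_of_coe_eq_mul_right hS
    have hPri : P₀.relIndex S = Nat.card B := by
      have h := relIndex_mul_card' hPS
      rw [hScard, mul_comm] at h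
      exact Nat.eq_of_mul_eq_mul_left Nat.card_pos h
    have hBri : B.relIndex S = Nat.card P₀ := by
      have h := relIndex_mul_card' hBS
      rw [hScard] at h
      exact Nat.eq_of_mul_eq_mul_right Nat.card_pos h
    have hP'ne : C ⊓ P₀ ≠ ⊥ := by
      obtain ⟨c, hc⟩ := exists_prime_orderOf_dvd_card' (G := C) p hpC
      have hc' : orderOf (c : M) = p := by rw [Subgroup.orderOf_coe]; exact hc
      have hz : IsPGroup p (Subgroup.zpowers (c : M)) := by
        apply IsPGroup.of_card (n := 1)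
        rw [Nat.card_zpowers, hc', pow_one]
      obtain ⟨m, -, hm⟩ := exists_conj_le_of_isPGroup ⊤ P₀ _ le_top hsH.isPGroup hz (by
        rw [Subgroup.relIndex_top_right]; exact MinCE.not_dvd_index_Q hsH hHhall hpH)
      intro hbot
      have h3 : m * (c : M) * m⁻¹ ∈ C ⊓ P₀ :=
        ⟨hCn.conj_mem _ c.2 m, hm ⟨_, Subgroup.mem_zpowers _, rfl⟩⟩
      rw [hbot, Subgroup.mem_bot] at h3
      have h4 : (c : M) = 1 := by
        have : (c : M) = m⁻¹ * (m * (c : M) * m⁻¹) * m := by group
        rw [this, h3]; group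
      rw [h4, orderOf_one] at hc'
      exact hp.one_lt.ne hc'
    apply hP'ne
    apply h2 p (C ⊓ P₀) hpH (hsH.isPGroup.to_le inf_le_right)
    intro b hb
    apply mem_normalizer_of_conj_mem'
    intro y hy
    have hwC : b * y * b⁻¹ ∈ C := hCn.conj_mem y hy.1 b
    have hwS : b * y * b⁻¹ ∈ S := S.mul_mem (S.mul_mem (hBS hb) (hPS hy.2)) (S.inv_mem (hBS hb))
    have hnS : S ≤ Subgroup.normalizer ((C ⊓ S : Subgroup M) : Set M) := by
      intro s hs'
      apply mem_normalizer_of_conj_mem'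
      intro d hd
      exact ⟨hCn.conj_mem d hd.1 s, S.mul_mem (S.mul_mem hs' hd.2) (S.inv_mem hs')⟩
    obtain ⟨y₁, hy₁, z₁, hz₁, hw⟩ := factorized_of_le_normalizer (C := C ⊓ S) (H₁ := P₀) (K₁ := B)
      (L := S) inf_le_right hnS (by rw [hPri, hBri]; exact hPBcop.symm) _ ⟨hwC, hwS⟩
    have hz₁F : z₁ ∈ F ⊓ B := hCB z₁ hz₁.1.1 hz₁.2
    have hcomm : Commute y₁ z₁ := (Subgroup.mem_centralizer_iff.1 hy₁.1.1 z₁ hz₁F).symm
    have e1 : (b * y * b⁻¹) ^ Nat.card P₀ = 1 := by
      rw [conj_pow, pow_card_eq_one_of_mem hy.2]; group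
    rw [hw, hcomm.mul_pow, pow_card_eq_one_of_mem hy₁.2, one_mul] at e1
    have hz1 : z₁ = 1 := eq_one_of_pow_eq_one_of_coprime hPBcop e1 (pow_card_eq_one_of_mem hz₁.2)
    rw [hw, hz1, mul_one]
    exact ⟨hy₁.1.1, hy₁.2⟩
  have hCK : C ≤ K := hle_K C hCn hCcop
  constructor
  intro x hx g
  exact hs.conj_mem_Q hx (hCK (hCn.conj_mem x (hQC hx) g))

theorem Split.subgroupOf {G : Type*} [Group G] {K Q B : Subgroup G} {q : ℕ}
    (h : Split K q Q B) (M : Subgroup G) :
    Split (K.subgroupOf M) q (Q.subgroupOf M) (B.subgroupOf M) where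
  Q_le := fun _ hx => h.Q_le hx
  B_le := fun _ hx => h.B_le hx
  mem_Q := fun x hx hk => h.mem_Q x hx (by rwa [Subgroup.orderOf_coe])
  mem_B := fun x hx hk => h.mem_B x hx (by rwa [Subgroup.orderOf_coe])
  isPGroup := h.isPGroup.comap_subtype
  coprime := Nat.Coprime.coprime_dvd_left
    (Subgroup.card_comap_dvd_of_injective B M.subtype M.subtype_injective) h.coprime
  comm := fun x hx y hy => Subtype.ext (h.comm x hx y hy)

namespace MinCE

universe u

variable {G : Type u} [Group G] [Finite G] {H K : Subgroup G}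

theorem eq_bot_of_forall_conj_mem (hG : MinCE G H K) (R : Subgroup G)
    (h : ∀ x ∈ R, ∀ b : G, b * x * b⁻¹ ∈ H) : R = ⊥ := by
  have h1 : H.normalCore = ⊥ := by
    apply hG.eq_bot_of_normal
    intro h2
    apply hG.H_ne_top
    rw [eq_top_iff, ← h2]
    exact Subgroup.normalCore_le H
  rw [eq_bot_iff, ← h1]
  intro x hx
  exact h x hx

theorem le_normalizer_Q_of_K_le (hG : MinCE G H K) {M : Subgroup G} (hKM : K ≤ M) (hM : M ≠ ⊤)
    {q : ℕ} [Fact q.Prime] {Q B : Subgroup G} (hs : Split K q Q B) :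
    M ≤ Subgroup.normalizer (Q : Set G) := by
  have hsolv := hG.solvable_of_K_le hKM hM
  have hcop : (Nat.card (H.subgroupOf M)).Coprime (Nat.card (K.subgroupOf M)) :=
    Nat.Coprime.coprime_dvd_left
      (Subgroup.card_comap_dvd_of_injective H M.subtype M.subtype_injective)
      (Nat.Coprime.coprime_dvd_right
        (Subgroup.card_comap_dvd_of_injective K M.subtype M.subtype_injective) hG.cop)
  have hfact : ∀ g : M, ∃ h ∈ H.subgroupOf M, ∃ k ∈ K.subgroupOf M, g = h * k := by
    intro g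
    obtain ⟨h, hh, k, hk, hg⟩ := hG.factorized_of_K_le hKM g g.2
    exact ⟨⟨h, hh.1⟩, hh.2, ⟨k, hk.1⟩, hk.2, Subtype.ext hg⟩
  rw [← Subgroup.normal_subgroupOf_iff_le_normalizer (hs.Q_le.trans hKM)]
  apply normal_Q_of_hyps (H.subgroupOf M) (K.subgroupOf M) (isNilpotent_subgroupOf _ _ hG.nilH)
    hcop hfact ?_ q _ (B.subgroupOf M) (hs.subgroupOf M) ?_
  · intro R hRn hRc
    have hcard := fact_card _ _ hcop hfact
    have hHi : (H.subgroupOf M).index = Nat.card (K.subgroupOf M) := by
      have h := Subgroup.card_mul_index (H.subgroupOf M)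
      rw [← hcard] at h
      exact Nat.eq_of_mul_eq_mul_left Nat.card_pos h
    have hRH : R ≤ H.subgroupOf M := by
      apply le_of_coprime_relIndex (L := ⊤) le_top
      · rw [Subgroup.normalizer_eq_top_iff.2 hRn]
      · rw [Subgroup.relIndex_top_right, hHi]; exact hRc
    have h3 : R.map M.subtype = ⊥ := by
      apply hG.eq_bot_of_forall_conj_mem
      rintro _ ⟨x, hx, rfl⟩ b
      obtain ⟨h, hh, k, hk, rfl⟩ := hG.fact b
      have h4 : (⟨k, hKM hk⟩ : M) * x * (⟨k, hKM hk⟩ : M)⁻¹ ∈ R := hRn.conj_mem x hx _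
      have h5 : k * (x : G) * k⁻¹ ∈ H := hRH h4
      have h6 : h * k * M.subtype x * (h * k)⁻¹ = h * (k * (x : G) * k⁻¹) * h⁻¹ := by
        simp only [Subgroup.subtype_apply]; group
      rw [h6]
      exact H.mul_mem (H.mul_mem hh h5) (H.inv_mem hh)
    exact (Subgroup.map_eq_bot_iff_of_injective _ M.subtype_injective).1 h3
  · intro p _ E hpd hE hBE
    have h3 : E.map M.subtype = ⊥ := by
      apply hG.eq_bot_of_isPGroup
        (hpd.trans (Subgroup.card_comap_dvd_of_injective H M.subtype M.subtype_injective))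
        (hG.nhall_B hs) _ (hE.map _) 1
      rw [map_one, one_smul]
      intro b hb
      apply mem_normalizer_of_conj_mem'
      rintro _ ⟨e, he, rfl⟩
      have hbM : b ∈ M := hKM (hs.B_le hb)
      have h4 : (⟨b, hbM⟩ : M) ∈ Subgroup.normalizer (E : Set M) := hBE hb
      exact ⟨_, conj_mem_of_mem_normalizer h4 he, rfl⟩
    exact (Subgroup.map_eq_bot_iff_of_injective _ M.subtype_injective).1 h3

/-- every proper subgroup containing `K` normalizes `K`. -/
theorem le_normalizer_of_K_le (hG : MinCE G H K) {M : Subgroup G} (hKM : K ≤ M) (hM : M ≠ ⊤) :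
    M ≤ Subgroup.normalizer (K : Set G) := by
  intro m hm
  apply mem_normalizer_of_conj_mem'
  have key : ∀ n : ℕ, ∀ x ∈ K, orderOf x = n → m * x * m⁻¹ ∈ K := by
    intro n
    induction n using Nat.strong_induction_on with
    | _ n ih =>
      intro x hx hn
      by_cases h1 : n = 1
      · rw [h1, orderOf_eq_one_iff] at hn
        rw [hn]; simp
      · have hq : (n.minFac).Prime := Nat.minFac_prime h1
        have := Fact.mk hq
        obtain ⟨Q, B, hs⟩ := exists_split K hG.nilK n.minFac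
        obtain ⟨a, ha, b, hb, hab, -, hbz⟩ := hs.exists_mul hx
        have hbd : orderOf b ∣ n := hn ▸ orderOf_dvd_of_mem_zpowers hbz
        have hn0 : 0 < n := hn ▸ orderOf_pos x
        have hblt : orderOf b < n := by
          refine lt_of_le_of_ne (Nat.le_of_dvd hn0 hbd) ?_
          intro heq
          have h2 := hs.orderOf_B hb
          rw [heq] at h2
          have h3 : (n.minFac).Coprime n.minFac :=
            Nat.Coprime.coprime_dvd_left (Nat.minFac_dvd n) h2
          rw [Nat.coprime_self] at h3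
          exact hq.one_lt.ne' h3
        have e1 := ih _ hblt b (hs.B_le hb) rfl
        have e2 : m * a * m⁻¹ ∈ K :=
          hs.Q_le (conj_mem_of_mem_normalizer (hG.le_normalizer_Q_of_K_le hKM hM hs hm) ha)
        have e3 : m * x * m⁻¹ = (m * a * m⁻¹) * (m * b * m⁻¹) := by rw [hab]; group
        rw [e3]
        exact K.mul_mem e2 e1
  intro d hd
  exact key _ d hd rfl

theorem le_normalizer_of_H_le (hG : MinCE G H K) {M : Subgroup G} (hHM : H ≤ M) (hM : M ≠ ⊤) :
    M ≤ Subgroup.normalizer (H : Set G) := hG.symm.le_normalizer_of_K_le hHM hM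

end MinCE

end Cfsg.Agent.Lib.Helper12
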