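import Mathlib
import Cfsg.Agent.Lib.Helper12.KW2

set_option autoImplicit false

namespace Cfsg.Agent.Lib.Helper12

open Pointwise

theorem rel_fact_card {G : Type*} [Group G] (L H₁ K₁ : Subgroup G) (hH : H₁ ≤ L) (hK : K₁ ≤ L)
    (cop : (Nat.card H₁).Coprime (Nat.card K₁))
    (fact : ∀ g ∈ L, ∃ h ∈ H₁, ∃ k ∈ K₁, g = h * k) :
    Nat.card L = Nat.card H₁ * Nat.card K₁ := by
  apply card_of_coe_eq_mul L H₁ K₁ _ (inf_eq_bot_of_coprime' cop)
  ext x
  constructor
  · intro hx
    obtain ⟨h, hh, k, hk, rfl⟩ := fact x hx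
    exact ⟨h, hh, k, hk, rfl⟩
  · rintro ⟨h, hh, k, hk, rfl⟩
    exact L.mul_mem (hH hh) (hK hk)

/-- an element of `Y` of order coprime to `|Y : H|` lies in the normal subgroup `H` of `Y`. -/
theorem mem_of_coprime_relIndex {G : Type*} [Group G] [Finite G] {H Y : Subgroup G} (hHY : H ≤ Y)
    (hn : Y ≤ Subgroup.normalizer (H : Set G)) {y : G} (hy : y ∈ Y)
    (hc : (H.relIndex Y).Coprime (orderOf y)) : y ∈ H := by
  have : (H.subgroupOf Y).Normal := (Subgroup.normal_subgroupOf_iff_le_normalizer hHY).2 hn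
  have h1 : (⟨y, hy⟩ : Y) ∈ H.subgroupOf Y := by
    apply mem_of_coprime_index'
    rw [← Subgroup.orderOf_coe]
    exact hc
  exact h1

namespace MinCE

universe u

variable {G : Type u} [Group G] [Finite G] {H K : Subgroup G}

theorem center_eq_bot (hG : MinCE G H K) : Subgroup.center G = ⊥ := by
  apply hG.eq_bot_of_normal
  intro h
  apply hG.notSolv
  apply Group.isSolvable_of_comm
  intro a b
  have ha : a ∈ Subgroup.center G := by rw [h]; trivial
  exact (Subgroup.mem_center_iff.1 ha b).symm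

theorem centralizer_ne_top (hG : MinCE G H K) {v : G} (hv : v ≠ 1) :
    Subgroup.centralizer ({v} : Set G) ≠ ⊤ := by
  intro h
  apply hv
  have h1 : v ∈ Subgroup.center G := by
    rw [Subgroup.mem_center_iff]
    intro g
    have hg : g ∈ Subgroup.centralizer ({v} : Set G) := by rw [h]; trivial
    exact Subgroup.mem_centralizer_singleton_iff.1 hg
  rw [hG.center_eq_bot, Subgroup.mem_bot] at h1
  exact h1

theorem normalizer_ne_top (hG : MinCE G H K) {E : Subgroup G} (hE : E ≠ ⊥) (hE' : E ≠ ⊤) :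
    Subgroup.normalizer (E : Set G) ≠ ⊤ := by
  intro h
  have : E.Normal := Subgroup.normalizer_eq_top_iff.1 h
  exact hE (hG.eq_bot_of_normal E hE')

theorem factorized_centralizer (hG : MinCE G H K) {v : G} (hvK : v ∈ K)
    (hvN : v ∈ Subgroup.normalizer (H : Set G)) :
    ∀ g ∈ Subgroup.centralizer ({v} : Set G), ∃ h ∈ Subgroup.centralizer ({v} : Set G) ⊓ H,
      ∃ k ∈ Subgroup.centralizer ({v} : Set G) ⊓ K, g = h * k := by
  intro g hg
  obtain ⟨h, hh, k, hk, rfl⟩ := hG.fact g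
  rw [Subgroup.mem_centralizer_singleton_iff] at hg
  have e1 : k * v * k⁻¹ = h⁻¹ * v * h := by
    have : k * v * k⁻¹ = h⁻¹ * (h * k * v) * k⁻¹ := by group
    rw [this, hg]; group
  have ht1 : v⁻¹ * (k * v * k⁻¹) ∈ K :=
    K.mul_mem (K.inv_mem hvK) (K.mul_mem (K.mul_mem hk hvK) (K.inv_mem hk))
  have ht2 : v⁻¹ * (k * v * k⁻¹) ∈ H := by
    rw [e1]
    have h1 : v⁻¹ * h⁻¹ * v⁻¹⁻¹ ∈ H :=
      conj_mem_of_mem_normalizer (Subgroup.inv_mem _ hvN) (H.inv_mem hh)
    have h2 : v⁻¹ * (h⁻¹ * v * h) = (v⁻¹ * h⁻¹ * v⁻¹⁻¹) * h := by group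
    rw [h2]
    exact H.mul_mem h1 hh
  have ht : v⁻¹ * (k * v * k⁻¹) = 1 := by
    have : v⁻¹ * (k * v * k⁻¹) ∈ H ⊓ K := ⟨ht2, ht1⟩
    rwa [hG.inf_eq_bot, Subgroup.mem_bot] at this
  have e2 : k * v * k⁻¹ = v := by
    have : k * v * k⁻¹ = v * (v⁻¹ * (k * v * k⁻¹)) := by group
    rw [this, ht, mul_one]
  refine ⟨h, Subgroup.mem_inf.2 ⟨?_, hh⟩, k, Subgroup.mem_inf.2 ⟨?_, hk⟩, rfl⟩
  · rw [Subgroup.mem_centralizer_singleton_iff]
    rw [e2] at e1
    have : h * v = h * (h⁻¹ * v * h) := by rw [← e1]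
    rw [this]; group
  · rw [Subgroup.mem_centralizer_singleton_iff]
    have : k * v = (k * v * k⁻¹) * k := by group
    rw [this, e2]

theorem centralizer_inf_le_aux (hG : MinCE G H K) {v : G} (hvK : v ∈ K)
    (hvN : v ∈ Subgroup.normalizer (H : Set G)) {q : ℕ} [hq : Fact q.Prime] (hvo : orderOf v = q) :
    Subgroup.centralizer ({v} : Set G) ⊓ H ≤ Subgroup.normalizer (K : Set G) := by
  have hv1 : v ≠ 1 := by
    rintro rfl
    rw [orderOf_one] at hvo
    exact hq.out.one_lt.ne hvo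
  obtain ⟨Q, B, hs⟩ := exists_split K hG.nilK q
  have hvQ : v ∈ Q := hs.mem_Q v hvK ⟨1, by rw [hvo, pow_one]⟩
  set C := Subgroup.centralizer ({v} : Set G) with hC
  have hCne : C ≠ ⊤ := hG.centralizer_ne_top hv1
  have hfact := hG.factorized_centralizer hvK hvN
  have hsolv : Group.IsSolvable C := hG.solvable_of_factorized hCne hfact
  have hBC : B ≤ C := by
    intro b hb
    rw [hC, Subgroup.mem_centralizer_singleton_iff]
    exact (hs.comm v hvQ b hb).symm
  have hcop : (Nat.card (C ⊓ H : Subgroup G)).Coprime (Nat.card (C ⊓ K : Subgroup G)) :=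
    Nat.Coprime.coprime_dvd_left (Subgroup.card_dvd_of_le inf_le_right)
      (Nat.Coprime.coprime_dvd_right (Subgroup.card_dvd_of_le inf_le_right) hG.cop)
  have hcardC := rel_fact_card C (C ⊓ H) (C ⊓ K) inf_le_left inf_le_left hcop hfact
  have hBn := hG.nhall_B hs
  obtain ⟨W, hW⟩ := rel_perm C (C ⊓ H) (C ⊓ K) (C ⊓ H) B hsolv inf_le_left inf_le_left hfact le_rfl
    Subgroup.le_normalizer (le_inf hBC hs.B_le) (inf_le_right.trans hs.le_normalizer_B)
    (by
      have h1 := relIndex_mul_card' (inf_le_left : C ⊓ H ≤ C)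
      rw [hcardC, mul_comm] at h1
      rw [Nat.eq_of_mul_eq_mul_left Nat.card_pos h1]
      exact hcop)
    (Nat.Coprime.coprime_dvd_right (Dvd.intro _ (Subgroup.relIndex_mul_index hBC)) hBn.hall)
  have hAW : C ⊓ H ≤ W := le_of_coe_eq_mul_left hW
  have hBW : B ≤ W := le_of_coe_eq_mul_right hW
  have hWC : W ≤ C := by
    intro w hw
    have hw' : w ∈ (W : Set G) := hw
    rw [hW] at hw'
    obtain ⟨a, ha, b, hb, rfl⟩ := hw'
    exact C.mul_mem ha.1 (hBC hb)
  have hWsolv : Group.IsSolvable W := isSolvable_of_le hWC hsolv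
  have hWne : W ≠ ⊥ := fun h => hBn.ne (eq_bot_iff.2 (h ▸ hBW))
  obtain ⟨E, s, hsp, hEW, hEne, hWE, hEs⟩ := exists_rel_minNormal W hWsolv hWne
  have := Fact.mk hsp
  by_cases hsd : s ∣ Nat.card H
  · exfalso
    apply hEne
    apply hG.eq_bot_of_isPGroup hsd hBn E hEs 1
    rw [map_one, one_smul]
    exact hBW.trans hWE
  · have hABcop : (Nat.card (C ⊓ H : Subgroup G)).Coprime (Nat.card B) :=
      Nat.Coprime.coprime_dvd_right (Subgroup.card_dvd_of_le (le_inf hBC hs.B_le)) hcop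
    have hWcard := card_of_coe_eq_mul W _ B hW (inf_eq_bot_of_coprime' hABcop)
    have hBri : B.relIndex W = Nat.card (C ⊓ H : Subgroup G) := by
      have h := relIndex_mul_card' hBW
      rw [hWcard] at h
      exact Nat.eq_of_mul_eq_mul_right Nat.card_pos h
    have hEB : E ≤ B := by
      apply le_of_coprime_relIndex hEW hWE
      rw [hBri]
      obtain ⟨n, hn⟩ := IsPGroup.iff_card.1 hEs
      rw [hn]
      apply Nat.Coprime.pow_left
      apply Nat.Coprime.coprime_dvd_right (Subgroup.card_dvd_of_le inf_le_right)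
      exact (Nat.Prime.coprime_iff_not_dvd hsp).2 hsd
    have hKE : K ≤ Subgroup.normalizer (E : Set G) := by
      rw [← hs.sup_eq]
      exact sup_le ((hs.Q_le_centralizer hEB).trans (Subgroup.centralizer_le_normalizer _))
        (hBW.trans hWE)
    have hEtop : E ≠ ⊤ := by
      intro h
      apply hG.K_ne_top
      rw [eq_top_iff, ← h]
      exact hEB.trans hs.B_le
    exact hAW.trans (hWE.trans (hG.le_normalizer_of_K_le hKE (hG.normalizer_ne_top hEne hEtop)))

theorem exists_prime_order_pow {G : Type*} [Group G] [Finite G] {v : G} {q : ℕ}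
    (hd : q ∣ orderOf v) : orderOf (v ^ (orderOf v / q)) = q :=
  orderOf_pow_orderOf_div (orderOf_pos v).ne' hd

/-- elements of `H` commuting with a nontrivial element of `N_K(H)` normalize `K`. -/
theorem centralizer_inf_le (hG : MinCE G H K) {v : G} (hvK : v ∈ K)
    (hvN : v ∈ Subgroup.normalizer (H : Set G)) (hv1 : v ≠ 1) :
    Subgroup.centralizer ({v} : Set G) ⊓ H ≤ Subgroup.normalizer (K : Set G) := by
  have ho : orderOf v ≠ 1 := fun h => hv1 (orderOf_eq_one_iff.1 h)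
  obtain ⟨q, hq, hqd⟩ := Nat.exists_prime_and_dvd ho
  have := Fact.mk hq
  have h1 := hG.centralizer_inf_le_aux (K.pow_mem hvK (orderOf v / q))
    (Subgroup.pow_mem _ hvN (orderOf v / q)) (exists_prime_order_pow hqd)
  refine le_trans ?_ h1
  apply inf_le_inf_right
  intro g hg
  rw [Subgroup.mem_centralizer_singleton_iff] at hg ⊢
  exact (Commute.pow_right (show Commute g v from hg) _)

end MinCE

end Cfsg.Agent.Lib.Helper12
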