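import Mathlib
import Cfsg.Agent.Lib.Helper12.KW3
import Cfsg.Agent.S0558

set_option autoImplicit false

namespace Cfsg.Agent.Lib.Helper12

open Pointwise

/-- convenient form of the normal complement theorem for nilpotent subgroups whose Sylow subgroups
have normalizer equal to the subgroup. -/
theorem exists_normal_complement_of_split {M : Type*} [Group M] [Finite M] (H₁ : Subgroup M)
    (nil : Group.IsNilpotent H₁) (p r : ℕ) (hp : p.Prime) (hr : r.Prime) (hpr : p ≠ r)
    (hpd : p ∣ Nat.card H₁) (hrd : r ∣ Nat.card H₁)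
    (hn : ∀ (s : ℕ) [Fact s.Prime] (R A' : Subgroup M), s ∣ Nat.card H₁ → Split H₁ s R A' →
      Subgroup.normalizer (R : Set M) ≤ H₁) :
    ∃ N : Subgroup M, N.Normal ∧ Subgroup.IsComplement' N H₁ := by
  apply Cfsg.Agent.S0558.result H₁
  · intro s hs P hP
    have := Fact.mk hs
    have h1 : IsPGroup s H₁ := hP ▸ P.2
    obtain ⟨n, hn'⟩ := IsPGroup.iff_card.1 h1
    rw [hn'] at hpd hrd
    have e1 := (Nat.prime_dvd_prime_iff_eq hp hs).1 (hp.dvd_of_dvd_pow hpd)
    have e2 := (Nat.prime_dvd_prime_iff_eq hr hs).1 (hr.dvd_of_dvd_pow hrd)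
    exact hpr (e1.trans e2.symm)
  · intro s hs hsd P
    have := Fact.mk hs
    obtain ⟨R, A', hsp⟩ := exists_split H₁ nil s
    have hPR : (P : Subgroup H₁).map H₁.subtype = R := by
      apply le_antisymm
      · exact hsp.le_Q (Subgroup.map_subtype_le _) (P.2.map _)
      · intro x hx
        refine ⟨⟨x, hsp.Q_le hx⟩, ?_, rfl⟩
        apply Cfsg.Agent.Lib.Helper31.mem_sylow_of_normal P
        rw [← Subgroup.orderOf_coe]
        exact hsp.orderOf_Q hx
    rw [hPR]
    exact le_antisymm (hn s R A' hsd hsp) hsp.le_normalizer_Q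

namespace MinCE

universe u

variable {G : Type u} [Group G] [Finite G] {H K : Subgroup G}

theorem relIndex_normalizer_dvd (hG : MinCE G H K) :
    H.relIndex (Subgroup.normalizer (H : Set G)) ∣ Nat.card K := by
  rw [← hG.index_H]
  exact Dvd.intro _ (Subgroup.relIndex_mul_index Subgroup.le_normalizer)

theorem orderOf_dvd_card_of_mem {G : Type*} [Group G] {A : Subgroup G} {x : G} (hx : x ∈ A) :
    orderOf x ∣ Nat.card A := by
  have := orderOf_dvd_natCard (⟨x, hx⟩ : A)
  rwa [← Subgroup.orderOf_coe] at this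

/-- an element of `N(H)` whose order is coprime to `|K|` lies in `H`. -/
theorem mem_H_of_coprime (hG : MinCE G H K) {y : G} (hy : y ∈ Subgroup.normalizer (H : Set G))
    (hc : (orderOf y).Coprime (Nat.card K)) : y ∈ H :=
  mem_of_coprime_relIndex Subgroup.le_normalizer le_rfl hy
    (Nat.Coprime.coprime_dvd_left hG.relIndex_normalizer_dvd hc.symm)

theorem normalizer_B_le (hG : MinCE G H K) {s : ℕ} [Fact s.Prime] {P A : Subgroup G}
    (hs : Split H s P A) : Subgroup.normalizer (A : Set G) ≤ Subgroup.normalizer (H : Set G) := by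
  apply hG.le_normalizer_of_H_le hs.le_normalizer_B
  apply hG.normalizer_ne_top (hs.B_ne_bot (hG.not_isPGroup_H s))
  intro h
  apply hG.H_ne_top
  rw [eq_top_iff, ← h]
  exact hs.B_le

theorem mem_normalizer_of_conj_central (hG : MinCE G H K) {s : ℕ} [Fact s.Prime]
    {P A : Subgroup G} (hs : Split H s P A) {a : G} (haP : a ∈ P) (ha1 : a ≠ 1)
    (hac : H ≤ Subgroup.centralizer ({a} : Set G)) {t : G} (ht : t * a * t⁻¹ ∈ H) :
    t ∈ Subgroup.normalizer (H : Set G) := by
  have hCa := hG.le_normalizer_of_H_le hac (hG.centralizer_ne_top ha1)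
  have ha' : t * a * t⁻¹ ∈ P := hs.conj_mem_Q haP ht
  have h1 : t⁻¹ ∈ Subgroup.normalizer (A : Set G) := by
    apply mem_normalizer_of_conj_mem'
    intro b hb
    have hcomm := hs.comm _ ha' b hb
    have hcY : t⁻¹ * b * t⁻¹⁻¹ ∈ Subgroup.normalizer (H : Set G) := by
      apply hCa
      rw [Subgroup.mem_centralizer_singleton_iff]
      calc t⁻¹ * b * t⁻¹⁻¹ * a = t⁻¹ * (b * (t * a * t⁻¹)) * t := by group
        _ = t⁻¹ * ((t * a * t⁻¹) * b) * t := by rw [hcomm]
        _ = a * (t⁻¹ * b * t⁻¹⁻¹) := by group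
    apply hs.conj_mem_B hb
    apply hG.mem_H_of_coprime hcY
    rw [Split.orderOf_conj]
    exact Nat.Coprime.coprime_dvd_left (orderOf_dvd_card_of_mem (hs.B_le hb)) hG.cop
  have h2 := hG.normalizer_B_le hs h1
  simpa using Subgroup.inv_mem _ h2

end MinCE

end Cfsg.Agent.Lib.Helper12
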