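import Mathlib
import Cfsg.Agent.Lib.Helper12.KW4

set_option autoImplicit false

namespace Cfsg.Agent.Lib.Helper12

open Pointwise

theorem exists_central_mem {G : Type*} [Group G] (H P : Subgroup G) (nil : Group.IsNilpotent H)
    (hPH : P ≤ H) (hn : H ≤ Subgroup.normalizer (P : Set G)) (hP : P ≠ ⊥) :
    ∃ a ∈ P, a ≠ 1 ∧ H ≤ Subgroup.centralizer ({a} : Set G) := by
  have h1 : (P.subgroupOf H).Normal := (Subgroup.normal_subgroupOf_iff_le_normalizer hPH).2 hn
  have h2 : P.subgroupOf H ≠ ⊥ := by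
    intro h
    apply hP
    rw [Subgroup.subgroupOf_eq_bot] at h
    exact (disjoint_of_le_iff_left_eq_bot hPH).1 h
  obtain ⟨z, hz, hzc, hz1⟩ :=
    Cfsg.Agent.Lib.Helper31.exists_mem_center_of_normal_of_nilpotent (P.subgroupOf H) h2
  refine ⟨z, hz, fun h => hz1 (Subtype.ext h), ?_⟩
  intro h hh
  rw [Subgroup.mem_centralizer_singleton_iff]
  exact congrArg Subtype.val (Subgroup.mem_center_iff.1 hzc ⟨h, hh⟩)

namespace MinCE

universe u

variable {G : Type u} [Group G] [Finite G] {H K : Subgroup G}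

theorem centralizer_le_of_mem_normalizer_K (hG : MinCE G H K) {x : G} (hxH : x ∈ H)
    (hxN : x ∈ Subgroup.normalizer (K : Set G)) (hx1 : x ≠ 1) :
    Subgroup.centralizer ({x} : Set G) ≤ Subgroup.normalizer (H : Set G) := by
  intro g hg
  obtain ⟨k, hk, h, hh, rfl⟩ := hG.symm.factorized_centralizer hxH hxN g hg
  exact Subgroup.mul_mem _ (hG.symm.centralizer_inf_le hxH hxN hx1 hk)
    (Subgroup.le_normalizer hh.2)

theorem card_normalizer_H (hG : MinCE G H K) :
    Nat.card (Subgroup.normalizer (H : Set G)) =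
      Nat.card H * Nat.card (Subgroup.normalizer (H : Set G) ⊓ K : Subgroup G) := by
  have h1 := rel_fact_card (Subgroup.normalizer (H : Set G)) (Subgroup.normalizer (H : Set G) ⊓ H)
    (Subgroup.normalizer (H : Set G) ⊓ K) inf_le_left inf_le_left
    (Nat.Coprime.coprime_dvd_left (Subgroup.card_dvd_of_le inf_le_right)
      (Nat.Coprime.coprime_dvd_right (Subgroup.card_dvd_of_le inf_le_right) hG.cop))
    (hG.factorized_of_H_le Subgroup.le_normalizer)
  rwa [inf_eq_right.2 (Subgroup.le_normalizer : H ≤ _)] at h1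

theorem centralizer_le_caseB (hG : MinCE G H K) {x : G} (hxH : x ∈ H) (hx1 : x ≠ 1) {w : G}
    (hwM : w ∈ Subgroup.centralizer ({x} : Set G)) (hwY : w ∈ Subgroup.normalizer (H : Set G))
    (hwH : w ∉ H) : Subgroup.centralizer ({x} : Set G) ≤ Subgroup.normalizer (H : Set G) := by
  have hnc : ¬ (orderOf w).Coprime (Nat.card K) := fun h => hwH (hG.mem_H_of_coprime hwY h)
  obtain ⟨q, hq, hqw, hqK⟩ := Nat.Prime.not_coprime_iff_dvd.1 hnc
  have := Fact.mk hq
  set w' := w ^ (orderOf w / q) with hw'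
  have hw'o : orderOf w' = q := exists_prime_order_pow hqw
  have hw'M : w' ∈ Subgroup.centralizer ({x} : Set G) := Subgroup.pow_mem _ hwM _
  have hw'Y : w' ∈ Subgroup.normalizer (H : Set G) := Subgroup.pow_mem _ hwY _
  set Y := Subgroup.normalizer (H : Set G) with hY
  have hVnil : Group.IsNilpotent (Y ⊓ K : Subgroup G) := isNilpotent_of_le inf_le_right hG.nilK
  obtain ⟨QV, BV, hsV⟩ := exists_split (Y ⊓ K) hVnil q
  have hQVY : QV ≤ Y := hsV.Q_le.trans inf_le_left
  have hnd : ¬ q ∣ QV.relIndex Y := by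
    have h1 := relIndex_mul_card' hQVY
    rw [hG.card_normalizer_H, ← hsV.card_mul] at h1
    have h2 : QV.relIndex Y = Nat.card H * Nat.card BV := by
      apply Nat.eq_of_mul_eq_mul_right (Nat.card_pos (α := QV))
      rw [h1]; ring
    rw [h2]
    intro hd
    rcases (Nat.Prime.dvd_mul hq).1 hd with h | h
    · exact hq.one_lt.ne' (Nat.eq_one_of_dvd_coprimes hG.cop h hqK)
    · exact hq.one_lt.ne' (Nat.eq_one_of_dvd_coprimes hsV.coprime h dvd_rfl)
  have hz : IsPGroup q (Subgroup.zpowers w') := by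
    apply IsPGroup.of_card (n := 1)
    rw [Nat.card_zpowers, hw'o, pow_one]
  obtain ⟨y, hyY, hy⟩ := exists_conj_le_of_isPGroup Y QV (Subgroup.zpowers w')
    (Subgroup.zpowers_le.2 hw'Y) hsV.isPGroup hz hnd
  have hv : y * w' * y⁻¹ ∈ Y ⊓ K := hsV.Q_le (hy ⟨w', Subgroup.mem_zpowers _, rfl⟩)
  have hv1 : y * w' * y⁻¹ ≠ 1 := by
    intro h
    have h2 : orderOf (y * w' * y⁻¹) = q := by rw [Split.orderOf_conj, hw'o]
    rw [h, orderOf_one] at h2
    exact hq.one_lt.ne h2
  have hx'H : y * x * y⁻¹ ∈ H := conj_mem_of_mem_normalizer hyY hxH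
  have hx'1 : y * x * y⁻¹ ≠ 1 := by
    intro h
    apply hx1
    have : x = y⁻¹ * (y * x * y⁻¹) * y := by group
    rw [this, h]; group
  have hcomm : w' * x = x * w' := Subgroup.mem_centralizer_singleton_iff.1 hw'M
  have hx'C : y * x * y⁻¹ ∈ Subgroup.centralizer ({y * w' * y⁻¹} : Set G) ⊓ H := by
    refine Subgroup.mem_inf.2 ⟨?_, hx'H⟩
    rw [Subgroup.mem_centralizer_singleton_iff]
    calc y * x * y⁻¹ * (y * w' * y⁻¹) = y * (x * w') * y⁻¹ := by group
      _ = y * (w' * x) * y⁻¹ := by rw [hcomm]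
      _ = y * w' * y⁻¹ * (y * x * y⁻¹) := by group
  have hx'N := hG.centralizer_inf_le hv.2 hv.1 hv1 hx'C
  have hfin := hG.centralizer_le_of_mem_normalizer_K hx'H hx'N hx'1
  intro g hg
  rw [Subgroup.mem_centralizer_singleton_iff] at hg
  have h1 : y * g * y⁻¹ ∈ Y := by
    apply hfin
    rw [Subgroup.mem_centralizer_singleton_iff]
    calc y * g * y⁻¹ * (y * x * y⁻¹) = y * (g * x) * y⁻¹ := by group
      _ = y * (x * g) * y⁻¹ := by rw [hg]
      _ = y * x * y⁻¹ * (y * g * y⁻¹) := by group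
  have h2 : g = y⁻¹ * (y * g * y⁻¹) * y := by group
  rw [h2]
  exact Y.mul_mem (Y.mul_mem (Y.inv_mem hyY) h1) hyY

end MinCE

end Cfsg.Agent.Lib.Helper12
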