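import Mathlib
import Cfsg.Agent.Lib.Helper12.KW5

set_option autoImplicit false

namespace Cfsg.Agent.Lib.Helper12

open Pointwise

namespace MinCE

universe u

variable {G : Type u} [Group G] [Finite G] {H K : Subgroup G}

theorem exists_good_central (hG : MinCE G H K) (s : ℕ) [Fact s.Prime] (hsd : s ∣ Nat.card H) :
    ∃ a ∈ H, a ≠ 1 ∧ (∃ k : ℕ, orderOf a = s ^ k) ∧ H ≤ Subgroup.centralizer ({a} : Set G) ∧
      ∀ t : G, t * a * t⁻¹ ∈ H → t ∈ Subgroup.normalizer (H : Set G) := by
  obtain ⟨P, A, hs⟩ := exists_split H hG.nilH s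
  obtain ⟨a, haP, ha1, hac⟩ := exists_central_mem H P hG.nilH hs.Q_le hs.le_normalizer_Q
    (hs.Q_ne_bot hsd)
  exact ⟨a, hs.Q_le haP, ha1, hs.orderOf_Q haP, hac,
    fun t ht => hG.mem_normalizer_of_conj_central hs haP ha1 hac ht⟩

theorem coprime_of_primes_ne {p s : ℕ} (hp : p.Prime) (hs : s.Prime) (h : s ≠ p) (n : ℕ) :
    (s ^ n).Coprime p :=
  Nat.Coprime.pow_left n ((Nat.coprime_primes hs hp).2 h)

theorem centralizer_le_caseA (hG : MinCE G H K) {x : G} (hxH : x ∈ H) {p : ℕ} [hp : Fact p.Prime]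
    (hxo : orderOf x = p)
    (hMY : Subgroup.centralizer ({x} : Set G) ⊓ Subgroup.normalizer (H : Set G) ≤ H) :
    Subgroup.centralizer ({x} : Set G) ≤ H := by
  set M := Subgroup.centralizer ({x} : Set G) with hM
  obtain ⟨P, A, hs⟩ := exists_split H hG.nilH p
  have hxP : x ∈ P := hs.mem_Q x hxH ⟨1, by rw [hxo, pow_one]⟩
  have hAM : A ≤ M := by
    intro b hb
    rw [hM, Subgroup.mem_centralizer_singleton_iff]
    exact (hs.comm x hxP b hb).symm
  have hAne : A ≠ ⊥ := hs.B_ne_bot (hG.not_isPGroup_H p)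
  have hAcard : Nat.card A ≠ 1 := fun h => hAne (Subgroup.card_eq_one.1 h)
  obtain ⟨r, hr, hrA⟩ := Nat.exists_prime_and_dvd hAcard
  have hrp : p ≠ r := by
    rintro rfl
    exact hr.one_lt.ne' (Nat.eq_one_of_dvd_coprimes hs.coprime hrA dvd_rfl)
  have hH₁nil := isNilpotent_subgroupOf H M hG.nilH
  have hxM : x ∈ M := by rw [hM, Subgroup.mem_centralizer_singleton_iff]
  have hpH : p ∣ Nat.card H := hxo ▸ orderOf_dvd_card_of_mem hxH
  have hpd : p ∣ Nat.card (H.subgroupOf M) := by
    have h1 : (⟨x, hxM⟩ : M) ∈ H.subgroupOf M := hxH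
    have h2 := orderOf_dvd_card_of_mem h1
    rwa [← Subgroup.orderOf_coe, hxo] at h2
  have hrd : r ∣ Nat.card (H.subgroupOf M) := by
    have h1 : A.subgroupOf M ≤ H.subgroupOf M := fun y hy => hs.B_le hy
    have h2 := Subgroup.card_dvd_of_le h1
    rw [card_subgroupOf_of_le hAM] at h2
    exact hrA.trans h2
  have hdvdH : Nat.card (H.subgroupOf M) ∣ Nat.card H :=
    Subgroup.card_comap_dvd_of_injective H M.subtype M.subtype_injective
  obtain ⟨N, hNn, hc⟩ := exists_normal_complement_of_split (H.subgroupOf M) hH₁nil p r hp.out hr hrp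
    hpd hrd (by
      intro s _ R A' hsd hsp t ht
      obtain ⟨a, haH, ha1, hao, hac, hat⟩ := hG.exists_good_central s (hsd.trans hdvdH)
      have haM : a ∈ M := by
        rw [hM, Subgroup.mem_centralizer_singleton_iff]
        exact (Subgroup.mem_centralizer_singleton_iff.1 (hac hxH)).symm
      have haR : (⟨a, haM⟩ : M) ∈ R := hsp.mem_Q _ haH (by rwa [← Subgroup.orderOf_coe])
      have h1 := conj_mem_of_mem_normalizer ht haR
      have h2 : (t : G) * a * (t : G)⁻¹ ∈ H := hsp.Q_le h1
      exact hMY ⟨t.2, hat _ h2⟩)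
  have hNcard : (H.subgroupOf M).index = Nat.card N := hc.index_eq_card
  have hle_A : ∀ (s : ℕ) [Fact s.Prime] (Ps As : Subgroup G), Split H s Ps As → s ≠ p → Ps ≤ A := by
    intro s hsF Ps As hss hsp
    apply hs.le_B hss.Q_le
    obtain ⟨n, hn⟩ := IsPGroup.iff_card.1 hss.isPGroup
    rw [hn]
    exact coprime_of_primes_ne hp.out hsF.out hsp n
  have not_dvd : ∀ (s : ℕ) [Fact s.Prime], s ∣ Nat.card H → s ≠ p → ¬ s ∣ Nat.card N := by
    intro s _ hsH hsp hsN
    obtain ⟨Ps, As, hss⟩ := exists_split H hG.nilH s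
    have hPsM : Ps ≤ M := (hle_A s Ps As hss hsp).trans hAM
    have h1 : Ps.subgroupOf M ≤ H.subgroupOf M := fun y hy => hss.Q_le hy
    have h2 : (H.subgroupOf M).index ∣ Ps.relIndex M := Subgroup.index_dvd_of_le h1
    have h3 : Ps.relIndex M ∣ Ps.index := Dvd.intro _ (Subgroup.relIndex_mul_index hPsM)
    rw [← hNcard] at hsN
    exact not_dvd_index_Q hss hG.hall_H hsH (hsN.trans (h2.trans h3))
  have hNbot : N = ⊥ := by
    by_contra hNne
    have claim1 : ∀ s : ℕ, s.Prime → s ∣ Nat.card N → s = p := by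
      intro s hsp hsN
      by_contra hne
      have := Fact.mk hsp
      by_cases hsH : s ∣ Nat.card H
      · exact not_dvd s hsH hne hsN
      · have hsK : s ∣ Nat.card K := by
          have h1 : s ∣ Nat.card G :=
            hsN.trans ((Subgroup.card_subgroup_dvd_card N).trans (Subgroup.card_subgroup_dvd_card M))
          rw [← hG.card_eq] at h1
          exact ((Nat.Prime.dvd_mul hsp).1 h1).resolve_left hsH
        obtain ⟨S⟩ : Nonempty (Sylow s N) := inferInstance
        have hSne : (S : Subgroup N) ≠ ⊥ := S.ne_bot_of_dvd_card hsN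
        have hfr := Sylow.normalizer_sup_eq_top S
        set S₁ := (S : Subgroup N).map N.subtype with hS₁
        set T := Subgroup.normalizer (S₁ : Set M) with hT
        have hTi : T.index ∣ Nat.card N := by
          have h1 := card_sup_mul_card_inf T N
          rw [hfr, Subgroup.card_top] at h1
          have h2 := Subgroup.index_mul_card T
          have h3 : T.index * Nat.card (T ⊓ N : Subgroup M) = Nat.card N := by
            apply Nat.eq_of_mul_eq_mul_left (Nat.card_pos (α := T))
            rw [← h1, ← h2]; ring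
          exact Dvd.intro _ h3
        have := Fact.mk hr
        have hrH : r ∣ Nat.card H := hrA.trans (Subgroup.card_dvd_of_le hs.B_le)
        have hrT : ¬ r ∣ T.index := fun h => not_dvd r hrH (Ne.symm hrp) (h.trans hTi)
        obtain ⟨RT'⟩ : Nonempty (Sylow r T) := inferInstance
        have hRTi : ¬ r ∣ ((RT' : Subgroup T).map T.subtype).index := by
          rw [Subgroup.index_map_subtype]
          exact Nat.Prime.not_dvd_mul hr RT'.not_dvd_index hrT
        obtain ⟨Pr, Ar, hsr⟩ := exists_split H hG.nilH r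
        obtain ⟨m, -, hm⟩ := exists_conj_le_of_isPGroup (⊤ : Subgroup M)
          ((RT' : Subgroup T).map T.subtype) (Pr.subgroupOf M) le_top (RT'.2.map _)
          hsr.isPGroup.comap_subtype (by rwa [Subgroup.relIndex_top_right])
        have hPrM : Pr ≤ M := (hle_A r Pr Ar hsr (Ne.symm hrp)).trans hAM
        apply hSne
        have h5 : S₁.map M.subtype = ⊥ := by
          apply hG.symm.eq_bot_of_isPGroup hsK (hG.symm.nhall_Q hsr hrH) _ ((S.2.map _).map _) (m : G)
          rintro _ ⟨z, hz, rfl⟩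
          have h6 : m * ⟨z, hPrM hz⟩ * m⁻¹ ∈ T :=
            Subgroup.map_subtype_le _ (hm ⟨⟨z, hPrM hz⟩, hz, rfl⟩)
          apply mem_normalizer_of_conj_mem'
          rintro _ ⟨e, he, rfl⟩
          exact ⟨_, conj_mem_of_mem_normalizer h6 he, by simp [MulAut.conj_apply]⟩
        have h6 := (Subgroup.map_eq_bot_iff_of_injective _ M.subtype_injective).1 h5
        exact (Subgroup.map_eq_bot_iff_of_injective _ N.subtype_injective).1 h6
    have hNp : IsPGroup p N := by
      apply IsPGroup.of_card (n := (Nat.card N).primeFactorsList.length)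
      exact Nat.eq_prime_pow_of_unique_prime_dvd Nat.card_pos.ne' (fun hd hdvd => claim1 _ hd hdvd)
    obtain ⟨a, haH, ha1, ⟨k, hao⟩, hac, -⟩ := hG.exists_good_central p hpH
    have haM : a ∈ M := by
      rw [hM, Subgroup.mem_centralizer_singleton_iff]
      exact (Subgroup.mem_centralizer_singleton_iff.1 (hac hxH)).symm
    have hz : IsPGroup p (Subgroup.zpowers (⟨a, haM⟩ : M)) := by
      apply IsPGroup.of_card (n := k)
      rw [Nat.card_zpowers, ← Subgroup.orderOf_coe]
      exact hao
    have hPstar : IsPGroup p (N ⊔ Subgroup.zpowers (⟨a, haM⟩ : M) : Subgroup M) :=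
      hNp.to_sup_of_normal_left hz
    have h7 := inf_centralizer_ne_bot _ hPstar N le_sup_left Subgroup.le_normalizer_of_normal hNne
    apply h7
    rw [eq_bot_iff]
    intro n hn
    rw [Subgroup.mem_bot]
    have hnc : (⟨a, haM⟩ : M) * n = n * ⟨a, haM⟩ :=
      Subgroup.mem_centralizer_iff.1 hn.2 _
        ((le_sup_right : Subgroup.zpowers (⟨a, haM⟩ : M) ≤ _) (Subgroup.mem_zpowers _))
    have h8 : (n : G) ∈ Subgroup.centralizer ({a} : Set G) := by
      rw [Subgroup.mem_centralizer_singleton_iff]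
      exact (congrArg Subtype.val hnc).symm
    have h9 := hG.le_normalizer_of_H_le hac (hG.centralizer_ne_top ha1) h8
    have h10 : n ∈ H.subgroupOf M := hMY ⟨n.2, h9⟩
    have h11 : n ∈ N ⊓ H.subgroupOf M := ⟨hn.1, h10⟩
    rwa [hc.disjoint.eq_bot, Subgroup.mem_bot] at h11
  rw [hNbot] at hc
  have hH₁top : H.subgroupOf M = ⊤ := Subgroup.isComplement'_bot_left.1 hc
  intro g hg
  have : (⟨g, hg⟩ : M) ∈ H.subgroupOf M := by rw [hH₁top]; trivial
  exact this

/-- centralizers of elements of prime order of `H` lie in `N(H)`. -/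
theorem centralizer_le_normalizer (hG : MinCE G H K) {x : G} (hxH : x ∈ H) {p : ℕ}
    [hp : Fact p.Prime] (hxo : orderOf x = p) :
    Subgroup.centralizer ({x} : Set G) ≤ Subgroup.normalizer (H : Set G) := by
  by_cases hMY : Subgroup.centralizer ({x} : Set G) ⊓ Subgroup.normalizer (H : Set G) ≤ H
  · exact (hG.centralizer_le_caseA hxH hxo hMY).trans Subgroup.le_normalizer
  · rw [SetLike.not_le_iff_exists] at hMY
    obtain ⟨w, hw, hwH⟩ := hMY
    have hx1 : x ≠ 1 := by
      rintro rfl
      rw [orderOf_one] at hxo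
      exact hp.out.one_lt.ne hxo
    exact hG.centralizer_le_caseB hxH hx1 hw.1 hw.2 hwH

end MinCE

end Cfsg.Agent.Lib.Helper12
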