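import Mathlib
import Cfsg.Agent.Lib.Helper12.KW6
import Cfsg.Agent.Lib.Helper12.Burnside
import Cfsg.Agent.S0581

set_option autoImplicit false

namespace Cfsg.Agent.Lib.Helper12

open Pointwise

namespace MinCE

universe u

variable {G : Type u} [Group G] [Finite G] {H K : Subgroup G}

theorem coprime_prime_K (hG : MinCE G H K) {p : ℕ} (hp : p.Prime) (hd : p ∣ Nat.card H) :
    p.Coprime (Nat.card K) := by
  rw [Nat.Prime.coprime_iff_not_dvd hp]
  intro h
  exact hp.one_lt.ne' (Nat.eq_one_of_dvd_coprimes hG.cop hd h)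

/-- the trivial intersection property. -/
theorem mem_normalizer_of_mem_inf (hG : MinCE G H K) {w g : G}
    (hw : w ∈ Subgroup.normalizer (H : Set G)) (hwg : g⁻¹ * w * g ∈ Subgroup.normalizer (H : Set G))
    {p : ℕ} [hp : Fact p.Prime] (hpw : p ∣ orderOf w) (hpH : p ∣ Nat.card H) :
    g ∈ Subgroup.normalizer (H : Set G) := by
  set x := w ^ (orderOf w / p) with hx
  have hxo : orderOf x = p := exists_prime_order_pow hpw
  have hxH : x ∈ H := by
    apply hG.mem_H_of_coprime (Subgroup.pow_mem _ hw _)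
    rw [hxo]; exact hG.coprime_prime_K hp.out hpH
  have hconj : g⁻¹ * x * g = (g⁻¹ * w * g) ^ (orderOf w / p) := by
    have h1 := conj_pow (a := g⁻¹) (b := w) (i := orderOf w / p)
    rw [inv_inv] at h1
    rw [h1]
  have hx'o : orderOf (g⁻¹ * x * g) = p := by
    have h1 := Split.orderOf_conj g⁻¹ x
    rw [inv_inv] at h1
    rw [h1, hxo]
  have hx'H : g⁻¹ * x * g ∈ H := by
    apply hG.mem_H_of_coprime
    · rw [hconj]; exact Subgroup.pow_mem _ hwg _
    · rw [hx'o]; exact hG.coprime_prime_K hp.out hpH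
  obtain ⟨P, A, hs⟩ := exists_split H hG.nilH p
  have hx'P : g⁻¹ * x * g ∈ P := hs.mem_Q _ hx'H ⟨1, by rw [hx'o, pow_one]⟩
  apply hG.normalizer_B_le hs
  apply mem_normalizer_of_conj_mem'
  intro b hb
  have hcomm := hs.comm _ hx'P b hb
  have h1 : g * b * g⁻¹ ∈ Subgroup.normalizer (H : Set G) := by
    apply hG.centralizer_le_normalizer hxH hxo
    rw [Subgroup.mem_centralizer_singleton_iff]
    calc g * b * g⁻¹ * x = g * (b * (g⁻¹ * x * g)) * g⁻¹ := by group
      _ = g * ((g⁻¹ * x * g) * b) * g⁻¹ := by rw [hcomm]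
      _ = x * (g * b * g⁻¹) := by group
  apply hs.conj_mem_B hb
  apply hG.mem_H_of_coprime h1
  rw [Split.orderOf_conj]
  exact Nat.Coprime.coprime_dvd_left (orderOf_dvd_card_of_mem (hs.B_le hb)) hG.cop

theorem atMostOne (hG : MinCE G H K) {w : G} {p : ℕ} [hp : Fact p.Prime] (hpw : p ∣ orderOf w)
    (hpH : p ∣ Nat.card H) (z z' : G) (hz : z⁻¹ * w * z ∈ Subgroup.normalizer (H : Set G))
    (hz' : z'⁻¹ * w * z' ∈ Subgroup.normalizer (H : Set G)) :
    z⁻¹ * z' ∈ Subgroup.normalizer (H : Set G) := by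
  apply hG.mem_normalizer_of_mem_inf (w := z⁻¹ * w * z) hz (p := p) _ _ hpH
  · have : (z⁻¹ * z')⁻¹ * (z⁻¹ * w * z) * (z⁻¹ * z') = z'⁻¹ * w * z' := by group
    rw [this]; exact hz'
  · have h1 := Split.orderOf_conj z⁻¹ w
    rw [inv_inv] at h1
    rw [h1]; exact hpw

theorem exists_conj_mem (hG : MinCE G H K) {w : G} (hc : (orderOf w).Coprime (Nat.card K)) :
    ∃ z : G, z⁻¹ * w * z ∈ Subgroup.normalizer (H : Set G) := by
  obtain ⟨x, hx⟩ := Cfsg.Agent.S0581.result H (Subgroup.zpowers w) hG.nilH hG.hall_H (by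
    intro p hp hpd
    rw [Nat.card_zpowers] at hpd
    have h1 : p ∣ Nat.card G := hpd.trans (orderOf_dvd_natCard w)
    rw [← hG.card_eq] at h1
    rcases (Nat.Prime.dvd_mul hp).1 h1 with h | h
    · exact h
    · exact absurd (Nat.eq_one_of_dvd_coprimes hc hpd h) hp.one_lt.ne')
  obtain ⟨y, hy, hyw⟩ := hx (Subgroup.mem_zpowers w)
  refine ⟨x, Subgroup.le_normalizer ?_⟩
  have : x⁻¹ * w * x = y := by
    rw [← hyw]
    simp [MulAut.conj_apply, mul_assoc]
  rw [this]; exact hy

theorem normalizer_H_ne_top (hG : MinCE G H K) : Subgroup.normalizer (H : Set G) ≠ ⊤ :=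
  hG.normalizer_ne_top hG.H_ne_bot hG.H_ne_top

theorem false (hG : MinCE G H K) : False := by
  apply burnside_count (Subgroup.normalizer (H : Set G)) (Subgroup.normalizer (K : Set G))
    (fun g => by
      obtain ⟨h, hh, k, hk, rfl⟩ := hG.fact g
      exact ⟨h, Subgroup.le_normalizer hh, k, Subgroup.le_normalizer hk, rfl⟩)
    hG.normalizer_H_ne_top hG.symm.normalizer_H_ne_top
  intro g hg
  have ho : orderOf g ≠ 1 := fun h => hg (orderOf_eq_one_iff.1 h)
  have key : ∀ {H' K' : Subgroup G}, MinCE G H' K' → (orderOf g).Coprime (Nat.card K') →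
      Nat.card (MulAction.fixedBy (G ⧸ Subgroup.normalizer (H' : Set G)) g) = 1 := by
    intro H' K' hG' hc
    apply le_antisymm
    · obtain ⟨p, hp, hpd⟩ := Nat.exists_prime_and_dvd ho
      have := Fact.mk hp
      have hpH : p ∣ Nat.card H' := by
        have h1 : p ∣ Nat.card G := hpd.trans (orderOf_dvd_natCard g)
        rw [← hG'.card_eq] at h1
        rcases (Nat.Prime.dvd_mul hp).1 h1 with h | h
        · exact h
        · exact absurd (Nat.eq_one_of_dvd_coprimes hc hpd h) hp.one_lt.ne'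
      exact card_fixedBy_le_one _ g (fun z z' => hG'.atMostOne hpd hpH z z')
    · exact one_le_card_fixedBy _ g (hG'.exists_conj_mem hc)
  have key2 : ∀ {H' K' : Subgroup G}, MinCE G H' K' → ¬ (orderOf g).Coprime (Nat.card H') →
      Nat.card (MulAction.fixedBy (G ⧸ Subgroup.normalizer (H' : Set G)) g) ≤ 1 := by
    intro H' K' hG' hc
    obtain ⟨p, hp, hpd, hpH⟩ := Nat.Prime.not_coprime_iff_dvd.1 hc
    have := Fact.mk hp
    exact card_fixedBy_le_one _ g (fun z z' => hG'.atMostOne hpd hpH z z')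
  by_cases hcK : (orderOf g).Coprime (Nat.card K)
  · rw [key hG hcK]; simp
  · by_cases hcH : (orderOf g).Coprime (Nat.card H)
    · rw [key hG.symm hcH]; simp
    · have h1 := key2 hG hcH
      have h2 := key2 hG.symm hcK
      apply mul_nonneg_of_nonpos_of_nonpos
      · have : (Nat.card (MulAction.fixedBy (G ⧸ Subgroup.normalizer (H : Set G)) g) : ℤ) ≤ 1 := by
          exact_mod_cast h1
        linarith
      · have : (Nat.card (MulAction.fixedBy (G ⧸ Subgroup.normalizer (K : Set G)) g) : ℤ) ≤ 1 := by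
          exact_mod_cast h2
        linarith

end MinCE

universe u

/-- Wielandt: a product of two nilpotent groups of coprime orders is solvable. -/
theorem solvable_of_coprime_nilpotent_aux (n : ℕ) : ∀ (G : Type u) [Group G] [Finite G]
    (H K : Subgroup G), Nat.card G = n → Group.IsNilpotent H → Group.IsNilpotent K →
    (Nat.card H).Coprime (Nat.card K) → (∀ g : G, ∃ h ∈ H, ∃ k ∈ K, g = h * k) →
    Group.IsSolvable G := by
  induction n using Nat.strong_induction_on with
  | _ n ih =>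
    intro G _ _ H K hn hH hK hc hf
    by_contra hns
    exact MinCE.false (G := G) (H := H) (K := K)
      ⟨hH, hK, hc, hf, fun G' _ _ H' K' hlt hH' hK' hc' hf' =>
        ih (Nat.card G') (hn ▸ hlt) G' H' K' rfl hH' hK' hc' hf', hns⟩

theorem solvable_of_coprime_nilpotent {G : Type u} [Group G] [Finite G]
    (H K : Subgroup G) (hH : Group.IsNilpotent H) (hK : Group.IsNilpotent K)
    (hc : (Nat.card H).Coprime (Nat.card K)) (hf : ∀ g : G, ∃ h ∈ H, ∃ k ∈ K, g = h * k) :
    Group.IsSolvable G :=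
  solvable_of_coprime_nilpotent_aux _ G H K rfl hH hK hc hf

end Cfsg.Agent.Lib.Helper12
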