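import Mathlib
import Cfsg.Agent.Lib.Helper12.KW7
import Cfsg.Agent.S0560

set_option autoImplicit false

namespace Cfsg.Agent.Lib.Helper12

open Pointwise

universe u

theorem Split.sylow_map_eq {M : Type*} [Group M] [Finite M] {H₁ R A' : Subgroup M} {s : ℕ}
    [Fact s.Prime] (hsp : Split H₁ s R A') (nil : Group.IsNilpotent H₁) (P : Sylow s H₁) :
    (P : Subgroup H₁).map H₁.subtype = R := by
  apply le_antisymm
  · exact hsp.le_Q (Subgroup.map_subtype_le _) (P.2.map _)
  · intro x hx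
    refine ⟨⟨x, hsp.Q_le hx⟩, ?_, rfl⟩
    apply Cfsg.Agent.Lib.Helper31.mem_sylow_of_normal P
    rw [← Subgroup.orderOf_coe]
    exact hsp.orderOf_Q hx

theorem Split.relIndex_Q {G : Type*} [Group G] [Finite G] {K Q B : Subgroup G} {q : ℕ}
    [Fact q.Prime] (h : Split K q Q B) : Q.relIndex K = Nat.card B := by
  have h2 := relIndex_mul_card' h.Q_le
  rw [← h.card_mul, mul_comm (Nat.card Q)] at h2
  exact Nat.eq_of_mul_eq_mul_right Nat.card_pos h2

/-- A minimal counterexample to the Kegel--Wielandt theorem. -/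
structure MinKW (G : Type u) [Group G] [Finite G] (A B : Subgroup G) : Prop where
  nilA : Group.IsNilpotent A
  nilB : Group.IsNilpotent B
  fact : ∀ g : G, ∃ a ∈ A, ∃ b ∈ B, g = a * b
  ih : ∀ (G' : Type u) [Group G'] [Finite G'] (A' B' : Subgroup G'), Nat.card G' < Nat.card G →
    Group.IsNilpotent A' → Group.IsNilpotent B' →
    (∀ g : G', ∃ a ∈ A', ∃ b ∈ B', g = a * b) → Group.IsSolvable G'
  notSolv : ¬ Group.IsSolvable G

namespace MinKW

variable {G : Type u} [Group G] [Finite G] {A B : Subgroup G}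

theorem symm (hG : MinKW G A B) : MinKW G B A where
  nilA := hG.nilB
  nilB := hG.nilA
  fact := by
    intro g
    obtain ⟨h, hh, k, hk, hg⟩ := hG.fact g⁻¹
    refine ⟨k⁻¹, B.inv_mem hk, h⁻¹, A.inv_mem hh, ?_⟩
    rw [← mul_inv_rev, ← hg, inv_inv]
  ih := hG.ih
  notSolv := hG.notSolv

theorem solvable_quotient (hG : MinKW G A B) (N : Subgroup G) [N.Normal] (hN : N ≠ ⊥) :
    Group.IsSolvable (G ⧸ N) := by
  apply hG.ih (G ⧸ N) (A.map (QuotientGroup.mk' N)) (B.map (QuotientGroup.mk' N))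
  · rw [← Subgroup.index_eq_card, ← Subgroup.index_mul_card N]
    have h1 : 1 < Nat.card N := (Subgroup.one_lt_card_iff_ne_bot N).2 hN
    have h2 : 0 < N.index := Nat.pos_of_ne_zero Subgroup.index_ne_zero_of_finite
    nlinarith
  · have := hG.nilA
    exact Group.nilpotent_of_surjective ((QuotientGroup.mk' N).subgroupMap A)
      ((QuotientGroup.mk' N).subgroupMap_surjective A)
  · have := hG.nilB
    exact Group.nilpotent_of_surjective ((QuotientGroup.mk' N).subgroupMap B)
      ((QuotientGroup.mk' N).subgroupMap_surjective B)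
  · intro g
    obtain ⟨g, rfl⟩ := QuotientGroup.mk'_surjective N g
    obtain ⟨h, hh, k, hk, rfl⟩ := hG.fact g
    exact ⟨_, Subgroup.mem_map_of_mem _ hh, _, Subgroup.mem_map_of_mem _ hk, map_mul _ _ _⟩

theorem not_solvable (hG : MinKW G A B) (N : Subgroup G) [N.Normal] (hN : N ≠ ⊥) :
    ¬ Group.IsSolvable N := by
  intro h
  apply hG.notSolv
  have := hG.solvable_quotient N hN
  exact Group.isSolvable_of_ker_le_range N.subtype (QuotientGroup.mk' N) (by simp)

theorem sup_eq_top (hG : MinKW G A B) (N : Subgroup G) [N.Normal] (hN : N ≠ ⊥) : A ⊔ N = ⊤ := by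
  by_contra hne
  apply hG.not_solvable N hN
  have h1 : Group.IsSolvable (A ⊔ N : Subgroup G) := by
    apply hG.ih _ (A.subgroupOf (A ⊔ N)) (B.subgroupOf (A ⊔ N)) (MinCE.card_lt_of_ne_top hne)
      (isNilpotent_subgroupOf _ _ hG.nilA) (isNilpotent_subgroupOf _ _ hG.nilB)
    intro g
    obtain ⟨a, ha, b, hb, hg⟩ := hG.fact g
    have haM : a ∈ A ⊔ N := (le_sup_left : A ≤ A ⊔ N) ha
    have hbM : b ∈ A ⊔ N := by
      have : b = a⁻¹ * (g : G) := by rw [hg]; group
      rw [this]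
      exact Subgroup.mul_mem _ (Subgroup.inv_mem _ haM) g.2
    exact ⟨⟨a, haM⟩, ha, ⟨b, hbM⟩, hb, Subtype.ext hg⟩
  exact isSolvable_of_le le_sup_right h1

theorem coprime_index (hG : MinKW G A B) {p : ℕ} [Fact p.Prime] {Ap Ap' : Subgroup G}
    (hs : Split A p Ap Ap') (L : Subgroup G) [L.Normal] (hL : L ≠ ⊥) (hAL : Ap ≤ L) :
    (L.index).Coprime p := by
  have h1 : L.index = L.relIndex A := by
    rw [← Subgroup.relIndex_top_right, ← hG.sup_eq_top L hL, Subgroup.relIndex_sup_right]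
  rw [h1]
  apply Nat.Coprime.coprime_dvd_left (Subgroup.relIndex_dvd_of_le_left A hAL)
  rw [hs.relIndex_Q]
  exact hs.coprime

theorem le_of_normal (hG : MinKW G A B) {p : ℕ} [Fact p.Prime] {Ap Ap' Bp Bp' : Subgroup G}
    (hsA : Split A p Ap Ap') (hsB : Split B p Bp Bp') (L : Subgroup G) [L.Normal] (hL : L ≠ ⊥)
    (hAL : Ap ≤ L) : Bp ≤ L := by
  intro b hb
  apply mem_of_coprime_index'
  obtain ⟨k, hk⟩ := hsB.orderOf_Q hb
  rw [hk]
  exact Nat.Coprime.pow_right k (hG.coprime_index hsA L hL hAL)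

theorem normalClosure_le (hG : MinKW G A B) {p : ℕ} [Fact p.Prime] {Ap Ap' : Subgroup G}
    (hs : Split A p Ap Ap') (L : Subgroup G) [hLn : L.Normal] (hL : L ≠ ⊥) (N₀ : Subgroup G)
    (hAN : Ap ≤ N₀) (hn : L ≤ Subgroup.normalizer (N₀ : Set G)) :
    Subgroup.normalClosure (Ap : Set G) ≤ N₀ := by
  rw [Subgroup.normalClosure, Subgroup.closure_le]
  intro x hx
  rw [Group.mem_conjugatesOfSet_iff] at hx
  obtain ⟨a, ha, hax⟩ := hx
  rw [isConj_iff] at hax
  obtain ⟨c, rfl⟩ := hax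
  have hc : c ∈ L ⊔ A := by rw [sup_comm, hG.sup_eq_top L hL]; trivial
  rw [← SetLike.mem_coe, Subgroup.normal_mul] at hc
  obtain ⟨l, hl, a', ha', rfl⟩ := hc
  have h1 : a' * a * a'⁻¹ ∈ Ap := conj_mem_of_mem_normalizer (hs.le_normalizer_Q ha') ha
  have h2 := conj_mem_of_mem_normalizer (hn hl) (hAN h1)
  have h3 : l * a' * a * (l * a')⁻¹ = l * (a' * a * a'⁻¹) * l⁻¹ := by group
  rw [h3]; exact h2

theorem coprime (hG : MinKW G A B) : (Nat.card A).Coprime (Nat.card B) := by
  apply Nat.coprime_of_dvd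
  intro p hp hpA hpB
  have := Fact.mk hp
  obtain ⟨Ap, Ap', hsA⟩ := exists_split A hG.nilA p
  obtain ⟨Bp, Bp', hsB⟩ := exists_split B hG.nilB p
  have hApne := hsA.Q_ne_bot hpA
  have hBpne := hsB.Q_ne_bot hpB
  obtain ⟨P, Q, R, hR⟩ := Cfsg.Agent.S0560.result A B hG.fact p
  rw [hsA.sylow_map_eq hG.nilA P, hsB.sylow_map_eq hG.nilB Q] at hR
  set L := Subgroup.normalClosure (Ap : Set G) with hLdef
  have hLn : L.Normal := Subgroup.normalClosure_normal
  have hAL : Ap ≤ L := Subgroup.le_normalClosure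
  have hLne : L ≠ ⊥ := fun h => hApne (eq_bot_iff.2 (h ▸ hAL))
  have hBL : Bp ≤ L := hG.le_of_normal hsA hsB L hLne hAL
  have hne' : ∀ X : Subgroup G, X ≤ L → X ≠ ⊥ → X.subgroupOf L ≠ ⊥ := by
    intro X hXL hX h
    apply hX
    rw [Subgroup.subgroupOf_eq_bot] at h
    exact (disjoint_of_le_iff_left_eq_bot hXL).1 h
  obtain ⟨N', hN'n, hN'ne, hN'⟩ := Cfsg.Agent.S0566.result (G := L) (Ap.subgroupOf L)
    (Bp.subgroupOf L) (hne' Ap hAL hApne) (hne' Bp hBL hBpne) (by
      intro x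
      obtain ⟨a, ha, b, hb, hx⟩ := hG.fact (x : G)
      refine ⟨(MulAut.conj a • (R : Subgroup G)).subgroupOf L, ?_, ?_⟩
      · intro htop
        have hle : L ≤ MulAut.conj a • (R : Subgroup G) := Subgroup.subgroupOf_eq_top.1 htop
        have hpL : IsPGroup p L := (R.2.map (MulAut.conj a).toMonoidHom).to_le hle
        apply hG.not_solvable L hLne
        have := hpL.isNilpotent
        infer_instance
      · have h1 := coe_conj_smul_eq_mul hR a
        rw [(mem_normalizer_iff_smul Ap a).1 (hsA.le_normalizer_Q ha)] at h1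
        have h2 : MulAut.conj (x : G) • Bp = MulAut.conj a • Bp := by
          rw [hx, map_mul, mul_smul, (mem_normalizer_iff_smul Bp b).1 (hsB.le_normalizer_Q hb)]
        ext y
        constructor
        · intro hy
          have hy' : (y : G) ∈ ((MulAut.conj a • (R : Subgroup G) : Subgroup G) : Set G) := hy
          rw [h1] at hy'
          obtain ⟨u, hu, w, hw, huw⟩ := hy'
          rw [SetLike.mem_coe, ← h2] at hw
          obtain ⟨b', hb', rfl⟩ := hw
          refine ⟨⟨u, hAL hu⟩, hu, x * ⟨b', hBL hb'⟩ * x⁻¹, ⟨⟨b', hBL hb'⟩, hb', rfl⟩, ?_⟩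
          exact Subtype.ext huw
        · rintro ⟨u, hu, _, ⟨b', hb', rfl⟩, rfl⟩
          have h3 : ((u : G) * ((x : G) * (b' : G) * (x : G)⁻¹)) ∈
              ((MulAut.conj a • (R : Subgroup G) : Subgroup G) : Set G) := by
            rw [h1]
            refine ⟨u, hu, _, ?_, rfl⟩
            rw [SetLike.mem_coe, ← h2]
            exact ⟨b', hb', rfl⟩
          exact h3)
  have hN₀le : N'.map L.subtype ≤ L := Subgroup.map_subtype_le _
  have hN₀ne : ¬ L ≤ N'.map L.subtype := by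
    intro h
    apply hN'ne
    rw [eq_top_iff]
    intro y _
    obtain ⟨z, hz, hzy⟩ := h y.2
    have : z = y := Subtype.ext hzy
    exact this ▸ hz
  have hn : L ≤ Subgroup.normalizer ((N'.map L.subtype : Subgroup G) : Set G) := by
    intro w hw
    apply mem_normalizer_of_conj_mem'
    rintro _ ⟨e, he, rfl⟩
    exact ⟨⟨w, hw⟩ * e * ⟨w, hw⟩⁻¹, hN'n.conj_mem e he _, rfl⟩
  rcases hN' with h | h
  · apply hN₀ne
    apply hG.normalClosure_le hsA L hLne _ _ hn
    intro a ha
    exact ⟨⟨a, hAL ha⟩, h ha, rfl⟩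
  · apply hN₀ne
    have h1 : Subgroup.normalClosure (Bp : Set G) ≤ N'.map L.subtype := by
      apply hG.symm.normalClosure_le hsB L hLne _ _ hn
      intro a ha
      exact ⟨⟨a, hBL ha⟩, h ha, rfl⟩
    refine le_trans ?_ h1
    have hLBn : (Subgroup.normalClosure (Bp : Set G)).Normal := Subgroup.normalClosure_normal
    have hLBne : Subgroup.normalClosure (Bp : Set G) ≠ ⊥ :=
      fun h' => hBpne (eq_bot_iff.2 (h' ▸ Subgroup.le_normalClosure))
    apply Subgroup.normalClosure_le_normal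
    exact hG.symm.le_of_normal hsB hsA _ hLBne Subgroup.le_normalClosure

theorem false (hG : MinKW G A B) : False :=
  hG.notSolv (solvable_of_coprime_nilpotent A B hG.nilA hG.nilB hG.coprime hG.fact)

end MinKW

theorem kegel_wielandt_aux (n : ℕ) : ∀ (G : Type u) [Group G] [Finite G]
    (A B : Subgroup G), Nat.card G = n → Group.IsNilpotent A → Group.IsNilpotent B →
    (∀ g : G, ∃ a ∈ A, ∃ b ∈ B, g = a * b) → Group.IsSolvable G := by
  induction n using Nat.strong_induction_on with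
  | _ n ih =>
    intro G _ _ A B hn hA hB hf
    by_contra hns
    exact MinKW.false (G := G) (A := A) (B := B)
      ⟨hA, hB, hf, fun G' _ _ A' B' hlt hA' hB' hf' =>
        ih (Nat.card G') (hn ▸ hlt) G' A' B' rfl hA' hB' hf', hns⟩

end Cfsg.Agent.Lib.Helper12
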