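import Mathlib
import Cfsg.Agent.Lib.Helper12.MinNormal

set_option autoImplicit false

namespace Cfsg.Agent.Lib.Helper12

theorem prim_pretransitive {G : Type*} [Group G] {Ω : Type*} [MulAction G Ω] [FaithfulSMul G Ω]
    (hprim : MulAction.IsPreprimitive G Ω) (M : Subgroup G) [M.Normal] (hM : M ≠ ⊥) :
    MulAction.IsPretransitive M Ω := by
  have := hprim
  apply MulAction.IsQuasiPreprimitive.isPretransitive_of_normal (G := G)
  intro h
  apply hM
  rw [eq_bot_iff]
  intro m hm
  rw [Subgroup.mem_bot]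
  apply FaithfulSMul.eq_of_smul_eq_smul (α := Ω)
  intro x
  have : x ∈ MulAction.fixedPoints M Ω := by rw [h]; trivial
  rw [one_smul]; exact this ⟨m, hm⟩

/-- An element centralizing a transitive subgroup and fixing a point is trivial. -/
theorem eq_one_of_centralizes {G : Type*} [Group G] {Ω : Type*} [MulAction G Ω] [FaithfulSMul G Ω]
    (M : Subgroup G) (hMt : MulAction.IsPretransitive M Ω) (ω : Ω) (x : G) (hx : x • ω = ω)
    (hc : x ∈ Subgroup.centralizer (M : Set G)) : x = 1 := by
  apply FaithfulSMul.eq_of_smul_eq_smul (α := Ω)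
  intro y
  obtain ⟨m, rfl⟩ := MulAction.exists_smul_eq M ω y
  rw [one_smul, Subgroup.smul_def, smul_smul, ← Subgroup.mem_centralizer_iff.1 hc m m.2, mul_smul, hx]

end Cfsg.Agent.Lib.Helper12
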